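import Cfsg.Agent.Classical.Semisimple.SympModel
import Cfsg.Agent.Classical.SympFormStd
import Cfsg.Agent.LinAlg.Witt.Std

/-!
Elements of prime order of `Sp₂d(q)` with small moved space, and orders.
-/

set_option autoImplicit false

namespace CfsgLib.C3Derange

open Module Matrix CfsgLib.Classical.Semisimple CfsgLib.Classical.Semisimple.AltIsometry

variable {F : Type*} [Field F] {d : ℕ}

/-- `Sp` inside `GL`. -/
def spHom (d : ℕ) (F : Type*) [Field F] : Matrix.symplecticGroup (Fin d) F →* GL (Fin d ⊕ Fin d) F :=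
  MonoidHom.toHomUnits (Submonoid.subtype _)

theorem coe_spHom (x : Matrix.symplecticGroup (Fin d) F) :
    (spHom d F x : Matrix (Fin d ⊕ Fin d) (Fin d ⊕ Fin d) F) = (x : Matrix (Fin d ⊕ Fin d) (Fin d ⊕ Fin d) F) :=
  rfl

theorem spHom_mem (x : Matrix.symplecticGroup (Fin d) F) : spHom d F x ∈ Cfsg.spGL d F :=
  SympFormStd.mem_spGL.2 (Classical.Symp.form_mulVec x)

theorem spHom_injective : Function.Injective (spHom d F) := fun _ _ h => Subtype.ext (congrArg Units.val h)

theorem range_spHom : (spHom d F).range = Cfsg.spGL d F := by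
  refine le_antisymm ?_ fun g hg => ?_
  · rintro _ ⟨x, rfl⟩
    exact spHom_mem x
  · obtain ⟨A, hA⟩ := LinAlg.Witt.exists_symplecticGroup_of_preserves (SympFormStd.mem_spGL.1 hg)
    exact ⟨A, Units.ext hA⟩

theorem card_spGL [Fintype F] : Nat.card (Cfsg.spGL d F) =
    Fintype.card F ^ (d ^ 2) * ∏ i ∈ Finset.range d, (Fintype.card F ^ (2 * (i + 1)) - 1) := by
  rw [← range_spHom, ← Classical.Symp.card_symplecticGroup]
  exact Nat.card_congr (MonoidHom.ofInjective spHom_injective).toEquiv.symm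

theorem relIndex_mul_card (N : Subgroup (GL (Fin d ⊕ Fin d) F)) :
    N.relIndex (Cfsg.spGL d F) * Nat.card ↥(N ⊓ Cfsg.spGL d F) = Nat.card (Cfsg.spGL d F) := by
  rw [← Subgroup.inf_relIndex_right, ← Subgroup.index_mul_card ((N ⊓ Cfsg.spGL d F).subgroupOf (Cfsg.spGL d F))]
  congr 1
  exact (Nat.card_congr (Subgroup.subgroupOfEquivOfLe inf_le_right).toEquiv).symm

/-- A prime dividing the index is at most a degree of `Sp`. -/
theorem exists_degree [Fintype F] {r : ℕ} [hr : Fact r.Prime] (hrF : (r : F) ≠ 0)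
    {N : Subgroup (GL (Fin d ⊕ Fin d) F)} (h : r ∣ N.relIndex (Cfsg.spGL d F)) :
    ∃ i < d, orderOf (Fintype.card F : ZMod r) ∣ 2 * (i + 1) := by
  have h1 : r ∣ Nat.card (Cfsg.spGL d F) := relIndex_mul_card N ▸ h.mul_right _
  rw [card_spGL] at h1
  rcases hr.out.dvd_mul.1 h1 with h2 | h2
  · exfalso
    have h3 := hr.out.dvd_of_dvd_pow h2
    refine card_ne_zero_mod hrF ?_
    exact_mod_cast (ZMod.natCast_eq_zero_iff _ r).2 h3
  · obtain ⟨i, hi, hid⟩ := (Prime.dvd_finsetProd_iff hr.out.prime _).1 h2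
    exact ⟨i, Finset.mem_range.1 hi, (dvd_pow_sub_one_iff_orderOf_dvd _).1 hid⟩

theorem finrank_fixed_add_moved_end (f : Module.End F (Fin d ⊕ Fin d → F)) :
    finrank F (fixed f) + finrank F (moved f) = 2 * d := by
  rw [add_comm, fixed, moved, LinearMap.finrank_range_add_finrank_ker, SympModel.finrank_space]

/-- Conjugation preserves the dimension of the moved space. -/
theorem finrank_moved_conj (g x : GL (Fin d ⊕ Fin d) F) :
    finrank F (moved (Matrix.toLin' (Units.val (g⁻¹ * x * g)))) =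
      finrank F (moved (Matrix.toLin' (x : Matrix (Fin d ⊕ Fin d) (Fin d ⊕ Fin d) F))) := by
  let e : (Fin d ⊕ Fin d → F) ≃ₗ[F] (Fin d ⊕ Fin d → F) :=
    LinearMap.GeneralLinearGroup.generalLinearEquiv F _ (Matrix.GeneralLinearGroup.toLin g⁻¹)
  have he : ∀ y, e y = ((g⁻¹ : GL (Fin d ⊕ Fin d) F) : Matrix _ _ F) *ᵥ y := fun y => rfl
  have hconj : ∀ y, (((g⁻¹ * x * g : GL (Fin d ⊕ Fin d) F)) : Matrix _ _ F) *ᵥ (e y) - e y =
      e ((x : Matrix (Fin d ⊕ Fin d) (Fin d ⊕ Fin d) F) *ᵥ y - y) := fun y => by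
    rw [map_sub, he, he, Matrix.mulVec_mulVec, ← Units.val_mul, Matrix.mulVec_mulVec, ← Units.val_mul]
    simp [mul_assoc]
  rw [← LinearEquiv.finrank_map_eq e (moved (Matrix.toLin' (x : Matrix (Fin d ⊕ Fin d) (Fin d ⊕ Fin d) F)))]
  refine (LinearEquiv.ofEq _ _ ?_).finrank_eq
  ext w
  constructor
  · rintro ⟨y, rfl⟩
    refine ⟨_, ⟨e.symm y, rfl⟩, ?_⟩
    have := hconj (e.symm y)
    rw [LinearEquiv.apply_symm_apply] at this
    simpa [mul_assoc] using this.symm
  · rintro ⟨_, ⟨y, rfl⟩, rfl⟩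
    exact ⟨e y, by simpa [mul_assoc] using hconj y⟩

/-- A transvection of order `p`. -/
theorem exists_transvection_order {p : ℕ} [CharP F p] (hd : 0 < d) :
    ∃ x ∈ Cfsg.spGL d F, x ^ p = 1 ∧
      finrank F (moved (Matrix.toLin' (x : Matrix (Fin d ⊕ Fin d) (Fin d ⊕ Fin d) F))) = 1 := by
  set v : Fin d ⊕ Fin d → F := Classical.Symp.stdE ⟨0, hd⟩ with hv
  have hv0 : v ≠ 0 := fun h => by simpa [hv, Classical.Symp.stdE] using congrFun h (Sum.inr ⟨0, hd⟩)
  have hf := SympFormStd.isSymplecticForm d F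
  refine ⟨_, SympFormStd.sympT_mem_spGL v 1, Units.ext ?_, ?_⟩
  · set T := (AltFormTransv.sympT hf v 1 : Matrix (Fin d ⊕ Fin d) (Fin d ⊕ Fin d) F) with hT
    have hpow : ∀ (n : ℕ) y, (T ^ n) *ᵥ y = y + ((n : F) * Cfsg.sympForm d F y v) • v := by
      intro n
      induction n with
      | zero => simp
      | succ n ih =>
        intro y
        rw [pow_succ, ← Matrix.mulVec_mulVec, ih, hT, AltFormTransv.sympT_mulVec, one_mul,
          Classical.Symp.form_add_left, Classical.Symp.form_smul_left, Classical.Symp.form_self, mul_zero, add_zero,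
          add_assoc, ← add_smul]
        congr 2
        push_cast
        ring
    rw [Units.val_pow_eq_pow_val, ← hT, Units.val_one]
    refine Matrix.ext_of_mulVec_single fun i => ?_
    rw [hpow, CharP.cast_eq_zero F p, zero_mul, zero_smul, add_zero, Matrix.one_mulVec]
  · obtain ⟨w, hw⟩ := Classical.Symp.exists_form_eq_one hv0
    have hmv : ∀ y, (Matrix.toLin' (AltFormTransv.sympT hf v 1 : Matrix (Fin d ⊕ Fin d) (Fin d ⊕ Fin d) F) -
        (1 : F) • 1) y = Cfsg.sympForm d F y v • v := fun y => by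
      simp [AltFormTransv.sympT_mulVec]
    rw [show moved _ = Submodule.span F {v} from ?_, finrank_span_singleton hv0]
    refine le_antisymm ?_ ((Submodule.span_singleton_le_iff_mem _ _).2 ⟨-w, ?_⟩)
    · rintro _ ⟨y, rfl⟩
      rw [hmv]
      exact Submodule.smul_mem _ _ (Submodule.mem_span_singleton_self v)
    · rw [hmv, Classical.Symp.form_neg_left, Classical.Symp.form_swap w v, neg_neg, hw, one_smul]

/-- Elements of order `r` with moved space of dimension `2h`. -/
theorem exists_small_moved [Fintype F] {r h : ℕ} [Fact r.Prime] (hhd : h ≤ d)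
    (y : Matrix.symplecticGroup (Fin h) F) (hy : y ^ r = 1)
    (hfix : ∀ a, (y : Matrix (Fin h ⊕ Fin h) (Fin h ⊕ Fin h) F) *ᵥ a = a → a = 0) :
    ∃ x ∈ Cfsg.spGL d F, x ^ r = 1 ∧
      finrank F (moved (Matrix.toLin' (x : Matrix (Fin d ⊕ Fin d) (Fin d ⊕ Fin d) F))) = 2 * h := by
  obtain ⟨x, -, -, hx, -, -, -, -, -, hdim⟩ := SympModel.exists_model (d := d) (L := 1) (by simpa using hhd)
    (fun _ => y) (fun _ => hy) (fun _ => hfix) (r := r)
  refine ⟨spHom d F x, spHom_mem x, by rw [← map_pow, hx, map_one], ?_⟩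
  have h1 := finrank_fixed_add_moved_end (Matrix.toLin' (x : Matrix (Fin d ⊕ Fin d) (Fin d ⊕ Fin d) F))
  rw [coe_spHom]
  omega

end CfsgLib.C3Derange
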