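import Cfsg.Agent.C3Derange.OrthStr
import Cfsg.Agent.Classical.Semisimple.QuadCriteria

/-!
Isometries of odd prime order commuting with a self-adjoint map with non-square scalar square, and the
number of those maps modulo such a prime.
-/

set_option autoImplicit false
set_option linter.style.haveILetI false
set_option linter.unusedSectionVars false

namespace CfsgLib.C3Derange

open Module Polynomial CfsgLib.Classical.Semisimple CfsgLib.Classical.Semisimple.QuadType
open CfsgLib.Classical.Semisimple.QuadIsometry (Setting moved fixed pieceDim PieceSign Feasible ordq mem_fixed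
  moved_map_le)

universe u v

variable {F : Type u} [Field F] {V : Type v} [AddCommGroup V] [Module F V]
variable {Q : QuadraticForm F V} {δ : F} {J f : Module.End F V}

local notation "pol" => QuadraticMap.polar

/-- A skew map with image of dimension two does not commute with a structure. -/
theorem no_commute_rank_two [FiniteDimensional F V] (h2 : (2 : F) ≠ 0) (hδ : ¬ IsSquare δ) (hQ : NondegIn Q ⊤)
    (hJ : IsStr Q δ J) {N : Module.End F V} (hN : ∀ y, pol Q (N y) y = 0) (hc : ∀ y, N (J y) = J (N y))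
    (hd : finrank F (LinearMap.range N) = 2) : False := by
  classical
  have hskew : ∀ a b, pol Q (N a) b + pol Q (N b) a = 0 := fun a b => by
    have h := hN (a + b)
    rw [map_add, QuadraticMap.polar_add_left, QuadraticMap.polar_add_right, QuadraticMap.polar_add_right, hN a, hN b]
      at h
    linear_combination h
  obtain ⟨_, ⟨y, rfl⟩, hy0⟩ := Submodule.exists_mem_ne_zero_of_ne_bot
    (show LinearMap.range N ≠ ⊥ from fun h => by rw [h, finrank_bot] at hd; omega)
  have hli : LinearIndependent F ![N y, J (N y)] := LinearIndependent.pair_iff.2 fun a b h => by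
    have h' := congrArg J h
    rw [map_add, map_smul, map_smul, hJ.sq, map_zero, smul_smul] at h'
    have h3 : (a * a - b * b * δ) • N y = 0 := by
      linear_combination (norm := module) a • h - b • h'
    have h4 := (smul_eq_zero.1 h3).resolve_right hy0
    by_cases hb : b = 0
    · subst hb; exact ⟨mul_self_eq_zero.1 (by linear_combination h4), rfl⟩
    · exact absurd ⟨a / b, by field_simp; linear_combination -h4⟩ hδ
  have hspan : Submodule.span F (Set.range ![N y, J (N y)]) = LinearMap.range N := by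
    refine Submodule.eq_of_le_of_finrank_eq (Submodule.span_le.2 ?_) (by
      rw [finrank_span_eq_card hli, hd, Fintype.card_fin])
    rintro _ ⟨i, rfl⟩
    fin_cases i
    · exact ⟨y, rfl⟩
    · exact ⟨J y, hc y⟩
  refine hy0 (hQ (N y) trivial fun t _ => ?_)
  obtain ⟨c, hcc⟩ := (Submodule.mem_span_range_iff_exists_fun F).1
    (hspan ▸ ⟨t, rfl⟩ : N t ∈ Submodule.span F (Set.range ![N y, J (N y)]))
  rw [Fin.sum_univ_two] at hcc
  simp only [Matrix.cons_val_zero, Matrix.cons_val_one] at hcc
  have hk : N (t - (c 0 • y + c 1 • J y)) = 0 := by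
    rw [map_sub, map_add, map_smul, map_smul, hc, hcc, sub_self]
  have h1 : pol Q (N y) (t - (c 0 • y + c 1 • J y)) = 0 := by
    have h := hskew y (t - (c 0 • y + c 1 • J y))
    rwa [hk, QuadraticMap.polar_zero_left, add_zero] at h
  have h3 : pol Q (N y) (J y) = 0 := by
    have h := hskew y (J y)
    have h' : pol Q (N (J y)) y = pol Q (N y) (J y) := by rw [hc, hJ.adj]
    rw [h'] at h
    exact (mul_eq_zero.1 (show (2 : F) * pol Q (N y) (J y) = 0 by linear_combination h)).resolve_left h2
  rw [QuadraticMap.polar_sub_right, QuadraticMap.polar_add_right, QuadraticMap.polar_smul_right,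
    QuadraticMap.polar_smul_right, hN, h3] at h1
  simpa using h1

variable [Fintype F] [FiniteDimensional F V] {r : ℕ} [hr : Fact r.Prime]

theorem aeval_commute_str (hJf : f * J = J * f) (P : F[X]) (y : V) : aeval f P (J y) = J (aeval f P y) := by
  have h : Commute J (aeval f P) :=
    Algebra.commute_of_mem_adjoin_singleton_of_commute (aeval_mem_adjoin_singleton F f) hJf.symm
  rw [← Module.End.mul_apply, ← h.eq]; rfl

/-- `f⁻¹` is the middle Frobenius power of `f`. -/
theorem inv_eq_pow (hs : Setting Q f r) {j : ℕ} (hj : orderOf (Fintype.card F : ZMod r) = j + j) (P : F[X]) :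
    aeval (f ^ (r - 1)) P = (aeval f P) ^ (Fintype.card F ^ j) := by
  have hz : (Fintype.card F : ZMod r) ^ j = -1 := by
    have h2 : ((Fintype.card F : ZMod r) ^ j) ^ 2 = 1 := by
      rw [← pow_mul, show j * 2 = orderOf (Fintype.card F : ZMod r) by omega, pow_orderOf_eq_one]
    refine (sq_eq_one_iff.1 h2).resolve_left fun h => ?_
    have := orderOf_dvd_of_pow_eq_one h
    have hpos := hs.order_pos
    have := Nat.le_of_dvd (by omega) this
    omega
  have hmod : Fintype.card F ^ j ≡ r - 1 [MOD r] := by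
    rw [← ZMod.natCast_eq_natCast_iff, Nat.cast_pow, hz, Nat.cast_sub hr.out.one_le, ZMod.natCast_self]
    simp
  have hg : f ^ (r - 1) = f ^ (Fintype.card F ^ j) := by
    rw [pow_eq_pow_mod (r - 1) hs.pow, pow_eq_pow_mod (Fintype.card F ^ j) hs.pow, hmod]
  rw [hg]
  clear hz hmod hg hj
  induction j generalizing P with
  | zero => simp
  | succ j ih => rw [pow_succ, pow_mul, pow_mul, ← ih, ← map_pow, ← FiniteField.expand_card, expand_aeval]

theorem pow_half_even {δ : F} (hδ0 : δ ≠ 0) (hodd : Fintype.card F % 2 = 1) {j : ℕ} (hj : Even j) :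
    δ ^ ((Fintype.card F ^ j - 1) / 2) = 1 := by
  obtain ⟨m, hm⟩ : ∃ m, Fintype.card F = 2 * m + 1 := ⟨Fintype.card F / 2, by omega⟩
  obtain ⟨i, rfl⟩ := hj
  obtain ⟨c, hc⟩ : Fintype.card F ^ 2 - 1 ∣ Fintype.card F ^ (i + i) - 1 := by
    rw [show i + i = 2 * i by ring, pow_mul]
    simpa using Nat.sub_dvd_pow_sub_pow (Fintype.card F ^ 2) 1 i
  have h1 : Fintype.card F ^ 2 - 1 = 2 * ((2 * m) * (m + 1)) := by
    rw [hm, show (2 * m + 1) ^ 2 = 2 * ((2 * m) * (m + 1)) + 1 by ring, Nat.add_sub_cancel]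
  rw [hc, h1, mul_assoc 2, Nat.mul_div_cancel_left _ two_pos, mul_assoc, pow_mul,
    show 2 * m = Fintype.card F - 1 by omega, FiniteField.pow_card_sub_one_eq_one δ hδ0, one_pow]

theorem pow_half_odd {δ : F} (hδ : ¬ IsSquare δ) (hch : ringChar F ≠ 2) {j : ℕ} (hj : Odd j) :
    δ ^ ((Fintype.card F ^ j - 1) / 2) = -1 := by
  have hodd : Fintype.card F % 2 = 1 := FiniteField.odd_card_of_char_ne_two hch
  have hδ0 : δ ≠ 0 := fun h => hδ (h ▸ ⟨0, by simp⟩)
  have h1 : δ ^ (Fintype.card F / 2) = -1 := (FiniteField.pow_dichotomy hch hδ0).resolve_left fun h =>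
    hδ ((FiniteField.isSquare_iff hch hδ0).2 h)
  obtain ⟨i, rfl⟩ := hj
  obtain ⟨m, hm⟩ : ∃ m, Fintype.card F = 2 * m + 1 := ⟨Fintype.card F / 2, by omega⟩
  obtain ⟨t, ht⟩ : Odd ((Fintype.card F ^ 2) ^ i) := (Nat.odd_iff.2 hodd).pow.pow
  have he := pow_half_even hδ0 hodd (j := 2 * i) (even_two_mul i)
  rw [pow_mul, ht, show (2 * t + 1 - 1) / 2 = t by omega] at he
  rw [show Fintype.card F / 2 = m by omega] at h1
  rw [pow_succ, pow_mul, ht, hm,
    show ((2 * t + 1) * (2 * m + 1) - 1) / 2 = t * (2 * m + 1) + m by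
      rw [show (2 * t + 1) * (2 * m + 1) = 2 * (t * (2 * m + 1) + m) + 1 by ring]; omega,
    pow_add, h1, pow_mul, he, one_pow, one_mul]

theorem pow_apply_of_sq {g : Module.End F V} {M : Submodule F V} (hgM : ∀ y ∈ M, g y ∈ M) {δ : F}
    (hg2 : ∀ y ∈ M, g (g y) = δ • y) : ∀ (n : ℕ), ∀ y ∈ M, (g ^ (2 * n + 1)) y = δ ^ n • g y := by
  intro n
  induction n with
  | zero => intro y _; simp
  | succ n ih =>
    intro y hy
    rw [show 2 * (n + 1) + 1 = 2 + (2 * n + 1) by ring, pow_add, Module.End.mul_apply, ih y hy, map_smul,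
      pow_two, Module.End.mul_apply, hg2 _ (hgM y hy), smul_smul, ← pow_succ]

/-- Moved spaces of one piece of these degrees admit no commuting structure. -/
theorem no_commute_piece (h2 : (2 : F) ≠ 0) (hδ : ¬ IsSquare δ) (hs : Setting Q f r) (hJ : IsStr Q δ J)
    (hJf : f * J = J * f) (hd : finrank F (moved f) = pieceDim F r)
    (hcase : Odd (ordq F r) ∨ ∃ j, ordq F r = j + j ∧ Odd j) : False := by
  classical
  have hepos : 0 < orderOf (Fintype.card F : ZMod r) := hs.order_pos
  have hδ0 : δ ≠ 0 := fun h => hδ (h ▸ ⟨0, by simp⟩)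
  have hch : ringChar F ≠ 2 := ringChar_ne_two h2
  have hJf' : ∀ y, f (J y) = J (f y) := fun y => LinearMap.congr_fun hJf y
  have hJM : ∀ y ∈ moved f, J y ∈ moved f := by
    rintro _ ⟨a, rfl⟩
    exact ⟨J a, by simp [hJf']⟩
  have hne : moved f ≠ ⊥ := fun h => by
    have := hs.pieceDim_pos
    rw [h, finrank_bot] at hd
    omega
  obtain ⟨U, P, hUle, hUf, hUd, hP, hPc, hPU⟩ := hs.exists_irred moved_map_le le_rfl hne
  have hUne : U ≠ ⊥ := fun h => by rw [h, finrank_bot] at hUd; omega
  haveI := Fact.mk hP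
  obtain ⟨u₀, hu₀, hu₀0⟩ := Submodule.exists_mem_ne_zero_of_ne_bot hUne
  rcases hcase with heodd | ⟨j, hj, hjodd⟩
  · -- odd degree: two paired subspaces
    rw [pieceDim, if_neg (Nat.not_even_iff_odd.2 heodd)] at hd
    have hdvd : ∀ R : F[X], aeval f R u₀ = 0 → P ∣ R := fun R hR => by
      by_contra hn
      obtain ⟨a, b, hab⟩ := hP.coprime_iff_not_dvd.2 hn
      have h := congrArg (fun S => aeval f S u₀) hab
      simp only [map_add, map_mul, map_one, LinearMap.add_apply, Module.End.mul_apply, hPU u₀ hu₀, hR, map_zero,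
        add_zero, Module.End.one_apply] at h
      exact hu₀0 h.symm
    have hPdeg : P.natDegree = ordq F r := natDegree_of_dvd_cyclotomic hs.ne hP hPc
    haveI : FiniteDimensional F (AdjoinRoot P) := (AdjoinRoot.powerBasis hP.ne_zero).finite
    have hE : finrank F (AdjoinRoot P) = ordq F r := by
      rw [(AdjoinRoot.powerBasis hP.ne_zero).finrank, AdjoinRoot.powerBasis_dim, hPdeg]
    haveI : Finite (AdjoinRoot P) := Module.finite_of_finite F
    set U' := U.map J with hU'
    have hU'le : U' ≤ moved f := by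
      rintro _ ⟨a, ha, rfl⟩
      exact hJM a (hUle ha)
    have hU'f : U'.map f ≤ U' := by
      rintro _ ⟨_, ⟨a, ha, rfl⟩, rfl⟩
      exact ⟨f a, hUf ⟨a, ha, rfl⟩, (hJf' a).symm⟩
    have hJinj : Function.Injective J := fun a b hab => by
      have := congrArg J hab
      rw [hJ.sq, hJ.sq] at this
      exact smul_right_injective _ hδ0 this
    have hU'd : finrank F U' = ordq F r :=
      (Submodule.equivMapOfInjective J hJinj U).finrank_eq.symm.trans hUd
    rcases hs.minimal hUle hUd (inf_map_le hUf hU'f) inf_le_left with hbot | heq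
    swap
    · have hle : U ≤ U' := inf_eq_left.1 heq
      have hUU' : U = U' := Submodule.eq_of_le_of_finrank_eq hle (by rw [hUd, hU'd])
      have hev := even_finrank_stable hδ hJ.sq (U := U) fun a ha => hUU'.symm ▸ ⟨a, ha, rfl⟩
      rw [hUd] at hev
      exact Nat.not_even_iff_odd.2 heodd hev
    have hsup : U ⊔ U' = moved f := Submodule.eq_of_le_of_finrank_eq (sup_le hUle hU'le) (by
      rw [finrank_sup_disjoint (disjoint_iff.2 hbot), hUd, hU'd, hd]; ring)
    have hPall : ∀ y ∈ moved f, aeval f P y = 0 := by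
      intro y hy
      rw [← hsup] at hy
      obtain ⟨a, ha, b, ⟨c, hc, rfl⟩, rfl⟩ := Submodule.mem_sup.1 hy
      rw [map_add, hPU a ha, aeval_commute_str hJf, hPU c hc, map_zero, add_zero]
    have hinvM : ∀ y ∈ moved f, aeval (f ^ (r - 1)) P y = 0 := by
      intro y hy
      refine hs.nondeg_moved _ (Classical.Semisimple.aeval_mem ?_ P hy) fun a ha => ?_
      · refine map_le_of_forall_mem fun z hz => ?_
        have h := Classical.Semisimple.aeval_mem (moved_map_le (f := f)) (X ^ (r - 1)) hz
        simpa using h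
      · rw [QuadraticMap.polar_comm, ← QuadraticMap.polarBilin_apply_apply, ← hs.aeval_adjoint, hPall a ha]
        simp
    have h1 : P ∣ P.comp (X ^ (r - 1)) := hdvd _ (by
      rw [aeval_comp, map_pow, aeval_X]; exact hinvM u₀ (hUle hu₀))
    have h3 : P ∣ X ^ r - 1 := hdvd _ (by simp [hs.pow])
    set l := AdjoinRoot.root P with hl
    have hlr : l ^ r = 1 := by
      have h := AdjoinRoot.mk_eq_zero.2 h3
      rw [map_sub, map_pow, AdjoinRoot.mk_X, map_one, sub_eq_zero] at h
      exact h
    have hroot : aeval (l ^ (r - 1)) P = 0 := by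
      have h := AdjoinRoot.mk_eq_zero.2 h1
      rw [← AdjoinRoot.aeval_eq, aeval_comp, map_pow, aeval_X] at h
      exact h
    let φ : AdjoinRoot P →ₐ[F] AdjoinRoot P := AdjoinRoot.liftAlgHom P (Algebra.ofId F _) (l ^ (r - 1)) hroot
    let σ : AdjoinRoot P ≃ₐ[F] AdjoinRoot P := AlgEquiv.ofBijective φ (Algebra.IsAlgebraic.algHom_bijective φ)
    have hφl : φ l = l ^ (r - 1) := AdjoinRoot.liftAlgHom_root _ _ _ _
    have hσ2 : σ ^ 2 = 1 := by
      refine AlgEquiv.ext fun y => ?_
      suffices φ.comp φ = AlgHom.id F _ from AlgHom.congr_fun this y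
      refine AdjoinRoot.algHom_ext ?_
      show φ (φ l) = l
      rw [hφl, map_pow, hφl, ← pow_mul]
      obtain ⟨m, hm⟩ : ∃ m, r = m + 2 := ⟨r - 2, by have := hr.out.two_le; omega⟩
      rw [show (r - 1) * (r - 1) = r * m + 1 by
        rw [show r - 1 = m + 1 by omega, hm]; ring, pow_succ, pow_mul, hlr, one_pow, one_mul]
    haveI : IsGalois F (AdjoinRoot P) := GaloisField.instIsGaloisOfFinite
    have hσe : σ ^ ordq F r = 1 := by
      have := pow_card_eq_one' (G := AdjoinRoot P ≃ₐ[F] AdjoinRoot P) (x := σ)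
      rwa [IsGalois.card_aut_eq_finrank, hE] at this
    have hσ1 : σ = 1 := by
      have h := pow_gcd_eq_one.2 ⟨hσ2, hσe⟩
      rwa [(Nat.coprime_two_left.2 heodd), pow_one] at h
    have hfix : l ^ (r - 1) = l := by
      rw [← hφl]; exact AlgEquiv.congr_fun hσ1 l
    have hl2 : l ^ 2 = 1 := by
      conv_rhs => rw [← hlr, show r = r - 1 + 1 from (Nat.sub_add_cancel hr.out.one_le).symm, pow_succ, hfix]
      ring
    have hl1 : l = 1 := by
      obtain ⟨m, hm⟩ := hr.out.odd_of_ne_two hs.odd
      rwa [hm, pow_succ, pow_mul, hl2, one_pow, one_mul] at hlr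
    obtain ⟨c, hc⟩ : P ∣ X - 1 := AdjoinRoot.mk_eq_zero.1 (by
      rw [map_sub, AdjoinRoot.mk_X, map_one, sub_eq_zero]; exact hl1)
    have h5 : f u₀ = u₀ := by
      have h := congrArg (fun R => aeval f R u₀) hc
      rw [mul_comm P] at h
      simpa [hPU u₀ hu₀, sub_eq_zero] using h
    exact hu₀0 (Submodule.disjoint_def.1 hs.isCompl.disjoint u₀ (mem_fixed.2 h5) (hUle hu₀))
  · -- degree `2j`, `j` odd
    rw [pieceDim, if_pos ⟨j, hj⟩] at hd
    have hUM : U = moved f := Submodule.eq_of_le_of_finrank_eq hUle (by rw [hUd, hd])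
    let T : F[X] →ₗ[F] V := (LinearMap.applyₗ (R := F) u₀) ∘ₗ (aeval f).toLinearMap
    have hT : ∀ R : F[X], T R = aeval f R u₀ := fun R => rfl
    have hrange : LinearMap.range T = moved f := by
      have hle : LinearMap.range T ≤ moved f := by
        rintro _ ⟨R, rfl⟩
        exact Classical.Semisimple.aeval_mem moved_map_le R (hUle hu₀)
      refine (hs.minimal le_rfl hd (map_le_of_forall_mem ?_) hle).resolve_left fun h => hu₀0 ?_
      · rintro _ ⟨R, rfl⟩
        exact ⟨X * R, by simp [hT, map_mul, aeval_X]⟩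
      · have := (Submodule.eq_bot_iff _).1 h (T 1) ⟨1, rfl⟩
        simpa [hT] using this
    obtain ⟨R, hR⟩ : J u₀ ∈ LinearMap.range T := hrange ▸ hJM u₀ (hUle hu₀)
    set g := aeval f R with hg
    have hgJ : ∀ y ∈ moved f, J y = g y := by
      intro y hy
      obtain ⟨S, rfl⟩ : y ∈ LinearMap.range T := hrange ▸ hy
      rw [hT, hg, ← aeval_commute_str hJf, ← hR, hT, ← Module.End.mul_apply, ← Module.End.mul_apply, ← map_mul,
        ← map_mul, mul_comm]
    have hgM : ∀ y ∈ moved f, g y ∈ moved f := fun y hy => Classical.Semisimple.aeval_mem moved_map_le R hy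
    have hg2 : ∀ y ∈ moved f, g (g y) = δ • y := fun y hy => by
      rw [← hgJ y hy, ← hgJ _ (hJM y hy), hJ.sq]
    have hodd : Fintype.card F % 2 = 1 := FiniteField.odd_card_of_char_ne_two hch
    have hkey : ∀ y ∈ moved f, (g ^ (Fintype.card F ^ j)) y = -g y := by
      intro y hy
      have h := pow_apply_of_sq hgM hg2 ((Fintype.card F ^ j - 1) / 2) y hy
      have hodd' := Nat.odd_iff.1 ((Nat.odd_iff.2 hodd).pow (n := j))
      rw [pow_half_odd hδ hch hjodd, show 2 * ((Fintype.card F ^ j - 1) / 2) + 1 = Fintype.card F ^ j by omega,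
        neg_one_smul] at h
      exact h
    have hJ0 : ∀ y ∈ moved f, J y = 0 := fun y hy => hs.nondeg_moved _ (hJM y hy) fun z hz => by
      have h : pol Q (J y) z = -pol Q (J y) z := by
        calc pol Q (J y) z = pol Q (g y) z := by rw [hgJ y hy]
          _ = pol Q y (aeval (f ^ (r - 1)) R z) := by
              rw [← QuadraticMap.polarBilin_apply_apply, ← QuadraticMap.polarBilin_apply_apply, hs.aeval_adjoint]
          _ = pol Q y (-J z) := by rw [inv_eq_pow hs hj, ← hg, hkey z hz, hgJ z hz]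
          _ = -pol Q (J y) z := by rw [QuadraticMap.polar_neg_right, hJ.adj]
      exact (mul_eq_zero.1 (show (2 : F) * pol Q (J y) z = 0 by linear_combination h)).resolve_left h2
    have h := hJ.sq u₀
    rw [hJ0 u₀ (hUle hu₀), map_zero, eq_comm, smul_eq_zero] at h
    exact hu₀0 (h.resolve_left hδ0)

/-- On one piece of degree `2j`, `j` even, the commuting structures are a fixed one and its negative. -/
theorem exists_piece_str (h2 : (2 : F) ≠ 0) (hδ : ¬ IsSquare δ) (hs : Setting Q f r)
    (hd : finrank F (moved f) = pieceDim F r) {j : ℕ} (hj : ordq F r = j + j) (hje : Even j) :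
    ∃ g : Module.End F V, (∀ y ∈ moved f, g y ∈ moved f) ∧ (∀ y ∈ moved f, g (g y) = δ • y) ∧
      (∀ a ∈ moved f, ∀ b ∈ moved f, pol Q (g a) b = pol Q a (g b)) ∧ (∀ y, g (f y) = f (g y)) ∧
      ∀ J : Module.End F V, f * J = J * f → (∀ y, J (J y) = δ • y) →
        (∀ y ∈ moved f, J y = g y) ∨ (∀ y ∈ moved f, J y = -g y) := by
  classical
  have hepos : 0 < orderOf (Fintype.card F : ZMod r) := hs.order_pos
  have hδ0 : δ ≠ 0 := fun h => hδ (h ▸ ⟨0, by simp⟩)
  have hodd : Fintype.card F % 2 = 1 := FiniteField.odd_card_of_char_ne_two (ringChar_ne_two h2)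
  rw [pieceDim, if_pos ⟨j, hj⟩] at hd
  have hne : moved f ≠ ⊥ := fun h => by
    rw [h, finrank_bot] at hd
    simp only [ordq] at hd
    omega
  obtain ⟨U, P, hUle, hUf, hUd, hP, hPc, hPU⟩ := hs.exists_irred moved_map_le le_rfl hne
  have hUM : U = moved f := Submodule.eq_of_le_of_finrank_eq hUle (by rw [hUd, hd])
  haveI := Fact.mk hP
  have hPdeg : P.natDegree = ordq F r := natDegree_of_dvd_cyclotomic hs.ne hP hPc
  haveI : FiniteDimensional F (AdjoinRoot P) := (AdjoinRoot.powerBasis hP.ne_zero).finite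
  have hE : finrank F (AdjoinRoot P) = ordq F r := by
    rw [(AdjoinRoot.powerBasis hP.ne_zero).finrank, AdjoinRoot.powerBasis_dim, hPdeg]
  haveI : Finite (AdjoinRoot P) := Module.finite_of_finite F
  haveI : Fintype (AdjoinRoot P) := Fintype.ofFinite _
  have hchE : ringChar (AdjoinRoot P) ≠ 2 := by
    rw [← Algebra.ringChar_eq F (AdjoinRoot P)]; exact ringChar_ne_two h2
  obtain ⟨l, hl⟩ : IsSquare (algebraMap F (AdjoinRoot P) δ) := by
    rw [FiniteField.isSquare_iff hchE (by simpa using hδ0)]
    have hcardE : Fintype.card (AdjoinRoot P) = Fintype.card F ^ ordq F r := by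
      rw [← Nat.card_eq_fintype_card, Module.natCard_eq_pow_finrank (K := F), Nat.card_eq_fintype_card, hE]
    have h := pow_half_even hδ0 hodd (j := ordq F r) ⟨j, hj⟩
    have hod : Fintype.card F ^ ordq F r % 2 = 1 := Nat.odd_iff.1 (Nat.odd_iff.2 hodd).pow
    rw [hcardE, ← map_pow, show Fintype.card F ^ ordq F r / 2 = (Fintype.card F ^ ordq F r - 1) / 2 by omega, h,
      map_one]
  obtain ⟨R, rfl⟩ := AdjoinRoot.mk_surjective l
  set g := aeval f R with hg
  have hR : P ∣ R * R - C δ := AdjoinRoot.mk_eq_zero.1 (by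
    rw [map_sub, map_mul, AdjoinRoot.mk_C, ← hl, sub_eq_zero]; rfl)
  have hg2 : ∀ y ∈ moved f, g (g y) = δ • y := by
    intro y hy
    obtain ⟨c, hc⟩ := hR
    have h := congrArg (fun S => aeval f S y) hc
    rw [mul_comm P] at h
    simpa [hPU y (hUM ▸ hy), hg, sub_eq_zero, Module.algebraMap_end_apply] using h
  have hgM : ∀ y ∈ moved f, g y ∈ moved f := fun y hy => Classical.Semisimple.aeval_mem moved_map_le R hy
  have hgf : ∀ y, g (f y) = f (g y) := fun y => aeval_commute_str (J := f) rfl R y
  refine ⟨g, hgM, hg2, fun a _ b hb => ?_, hgf, fun J hJf hsq => ?_⟩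
  · rw [← QuadraticMap.polarBilin_apply_apply, ← QuadraticMap.polarBilin_apply_apply, hg, hs.aeval_adjoint,
      inv_eq_pow hs hj]
    congr 1
    have h := pow_apply_of_sq hgM hg2 ((Fintype.card F ^ j - 1) / 2) b hb
    have hodd' := Nat.odd_iff.1 ((Nat.odd_iff.2 hodd).pow (n := j))
    rw [pow_half_even hδ0 hodd hje, show 2 * ((Fintype.card F ^ j - 1) / 2) + 1 = Fintype.card F ^ j by omega,
      one_smul] at h
    exact h
  · have hJf' : ∀ y, f (J y) = J (f y) := fun y => LinearMap.congr_fun hJf y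
    have hJM : ∀ y ∈ moved f, J y ∈ moved f := by
      rintro _ ⟨a, rfl⟩
      exact ⟨J a, by simp [hJf']⟩
    have hgJ : ∀ y, g (J y) = J (g y) := aeval_commute_str hJf R
    set W := moved f ⊓ LinearMap.ker (J - g) with hW
    have hWf : W.map f ≤ W := by
      refine map_le_of_forall_mem fun y hy => ⟨moved_map_le ⟨y, hy.1, rfl⟩, ?_⟩
      have h := hy.2
      simp only [SetLike.mem_coe, LinearMap.mem_ker, LinearMap.sub_apply, sub_eq_zero] at h ⊢
      rw [← hJf', hgf, h]
    rcases hs.minimal le_rfl hd hWf inf_le_left with h | h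
    · refine Or.inr fun y hy => ?_
      have hmem : J y + g y ∈ W := by
        refine ⟨(moved f).add_mem (hJM y hy) (hgM y hy), ?_⟩
        simp only [SetLike.mem_coe, LinearMap.mem_ker, LinearMap.sub_apply, map_add, hsq, hgJ, hg2 y hy]
        abel
      rw [h, Submodule.mem_bot] at hmem
      exact eq_neg_of_add_eq_zero_left hmem
    · refine Or.inl fun y hy => ?_
      have := (h.symm ▸ hy : y ∈ W).2
      simpa [sub_eq_zero] using this

omit hr in
theorem finite_str (Q : QuadraticForm F V) (δ : F) : Finite {J : Module.End F V // IsStr Q δ J} :=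
  haveI : Finite (Module.End F V) := Module.finite_of_finite F
  inferInstance

/-- If a prime divides the number of structures, some non-trivial isometry has that order. -/
theorem exists_setting_of_dvd (h2 : (2 : F) ≠ 0) (hδ : ¬ IsSquare δ) (hQ : NondegIn Q ⊤) (hr2 : r ≠ 2)
    (hrF : (r : F) ≠ 0) (hev : Even (finrank F V)) (hdvd : r ∣ Nat.card {J : Module.End F V // IsStr Q δ J}) :
    ∃ f : Module.End F V, Setting Q f r ∧ moved f ≠ ⊥ := by
  classical
  haveI := finite_str Q δ
  let G : Subgroup (V ≃ₗ[F] V) :=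
    { carrier := {g | ∀ x, Q (g x) = Q x}
      one_mem' := fun _ => rfl
      mul_mem' := fun {a b} ha hb x => by rw [LinearEquiv.mul_apply, ha, hb]
      inv_mem' := fun {a} ha x => by
        conv_rhs => rw [← LinearEquiv.apply_symm_apply a x, ha]
        rfl }
  haveI : Finite V := Module.finite_of_finite F
  haveI : Finite (V ≃ₗ[F] V) := Finite.of_injective (fun g => (g : V → V)) DFunLike.coe_injective
  have hGp : ∀ g : G, ∀ a b, pol Q ((g : V ≃ₗ[F] V) a) ((g : V ≃ₗ[F] V) b) = pol Q a b := fun g a b => by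
    simp only [QuadraticMap.polar, ← map_add, g.2 _]
  let conjJ : G → {J : Module.End F V // IsStr Q δ J} → {J : Module.End F V // IsStr Q δ J} := fun g J =>
    ⟨(g : V ≃ₗ[F] V).conj J.1, fun y => by simp [LinearEquiv.conj_apply, J.2.sq, map_smul], fun a b => by
      simp only [LinearEquiv.conj_apply, LinearMap.comp_apply, LinearEquiv.coe_coe]
      conv_lhs => rw [← (g : V ≃ₗ[F] V).apply_symm_apply b, hGp, J.2.adj]
      conv_rhs => rw [← (g : V ≃ₗ[F] V).apply_symm_apply a, hGp]⟩
  letI : MulAction G {J : Module.End F V // IsStr Q δ J} :=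
    { smul := conjJ
      one_smul := fun J => Subtype.ext (LinearMap.ext fun y => rfl)
      mul_smul := fun g h J => Subtype.ext (LinearMap.ext fun y => rfl) }
  obtain ⟨m, hm⟩ := hev
  obtain ⟨J0, hJ0⟩ := exists_str h2 δ m Q hQ (by omega)
  have horb : MulAction.orbit G (⟨J0, hJ0⟩ : {J : Module.End F V // IsStr Q δ J}) = Set.univ := by
    refine Set.eq_univ_of_forall fun J => ?_
    obtain ⟨g, hg, hgJ⟩ := exists_conj h2 hδ _ Q J0 J.1 hQ le_rfl hJ0 J.2
    refine ⟨⟨g, hg⟩, Subtype.ext (LinearMap.ext fun y => ?_)⟩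
    show g (J0 (g.symm y)) = J.1 y
    rw [hgJ, g.apply_symm_apply]
  have h1 : Nat.card {J : Module.End F V // IsStr Q δ J} ∣ Nat.card G := by
    rw [← Nat.card_congr (Equiv.Set.univ {J : Module.End F V // IsStr Q δ J}), ← horb,
      Nat.card_congr (MulAction.orbitEquivQuotientStabilizer G _)]
    exact Subgroup.card_quotient_dvd_card _
  obtain ⟨g, hg⟩ := exists_prime_orderOf_dvd_card' r (hdvd.trans h1)
  have hgr : (g : V ≃ₗ[F] V) ^ r = 1 := by
    rw [← SubgroupClass.coe_pow, ← hg, pow_orderOf_eq_one]; rfl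
  refine ⟨((g : V ≃ₗ[F] V) : Module.End F V), ⟨hQ, g.2, LinearMap.ext fun x => ?_, hr2, hrF⟩, fun h => ?_⟩
  · rw [← QuadIsometry.pow_apply_eq, hgr]; rfl
  · refine hr.out.ne_one (hg.symm.trans (orderOf_eq_one_iff.2 (Subtype.ext (LinearEquiv.ext fun x => ?_))))
    have hx : ((g : V ≃ₗ[F] V) : Module.End F V) x - x ∈ moved ((g : V ≃ₗ[F] V) : Module.End F V) := ⟨x, by simp⟩
    rw [h, Submodule.mem_bot, sub_eq_zero] at hx
    exact hx

theorem feasible_one (hs : Setting Q f r) (hne : moved f ≠ ⊥) :
    Feasible F r 1 (finrank F V) (Plus Q ⊤) := by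
  obtain ⟨a, had, -, hfd, hle, hap, -⟩ := hs.moved_feasible
  have hpos : 0 < pieceDim F r := hs.pieceDim_pos
  have ha : 0 < a := Nat.pos_of_ne_zero fun h => hne (Submodule.finrank_eq_zero.1 (by rw [had, h, zero_mul]))
  rcases Nat.lt_or_ge (1 * pieceDim F r) (finrank F V) with h | h
  · exact Or.inl h
  · have h3 : pieceDim F r ≤ a * pieceDim F r := Nat.le_mul_of_pos_left _ ha
    have h4 : a * pieceDim F r = 1 * pieceDim F r := by omega
    obtain rfl : a = 1 := Nat.eq_of_mul_eq_mul_right hpos h4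
    have htop : moved f = ⊤ := Submodule.eq_top_of_finrank_eq (by omega)
    refine Or.inr ⟨by omega, ?_⟩
    rwa [htop] at hap

/-- The number of structures is prime to `r` when the degree is divisible by four. -/
theorem not_dvd_card_str (h2 : (2 : F) ≠ 0) (hδ : ¬ IsSquare δ) (hr2 : r ≠ 2) (hrF : (r : F) ≠ 0) {j : ℕ}
    (hj : ordq F r = j + j) (hje : Even j) : ∀ (n : ℕ) {V : Type v} [AddCommGroup V] [Module F V]
    [FiniteDimensional F V] (Q : QuadraticForm F V), NondegIn Q ⊤ → finrank F V = n → Even n →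
    ¬ r ∣ Nat.card {J : Module.End F V // IsStr Q δ J} := by
  intro n
  induction n using Nat.strong_induction_on with
  | _ n ih =>
    intro V _ _ _ Q hQ hn hev hdvd
    classical
    obtain ⟨f₀, hs₀, hne₀⟩ := exists_setting_of_dvd h2 hδ hQ hr2 hrF (hn ▸ hev) hdvd
    obtain ⟨f, hs, hfd⟩ := QuadIsometry.exists_elem hQ hr2 hrF (feasible_one hs₀ hne₀)
    rw [mul_one] at hfd
    obtain ⟨g, hgM, hg2, hgadj, hgf, huniq⟩ := exists_piece_str h2 hδ hs hfd hj hje
    haveI := finite_str Q δ
    letI := Fintype.ofFinite {J : Module.End F V // IsStr Q δ J}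
    set M := moved f with hM
    set O := orth Q M with hOdef
    have hpos : 0 < pieceDim F r := hs.pieceDim_pos
    have hMn : NondegIn Q M := hs.nondeg_moved
    have hsp := split hQ hMn le_top
    rw [top_inf_eq, finrank_top, hfd, hn] at hsp
    have hspd : pieceDim F r + finrank F O = n := hsp.2.2
    have hOfix : ∀ b ∈ O, f b = b := by
      have h : fixed f = O := by
        refine Submodule.eq_of_le_of_finrank_eq hs.fixed_le_orth ?_
        have := Submodule.finrank_add_eq_of_isCompl hs.isCompl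
        rw [← hM, hfd] at this
        omega
      exact fun b hb => mem_fixed.1 (h ▸ hb)
    have hinv : ∀ x, (f ^ (r - 1)) (f x) = x := hs.inv_apply
    have hinv' : ∀ x, f ((f ^ (r - 1)) x) = x := fun x => by
      rw [← Module.End.mul_apply, ← pow_succ', Nat.sub_add_cancel hr.out.one_le, hs.pow]; rfl
    let φ : Function.End {J : Module.End F V // IsStr Q δ J} := fun J =>
      ⟨f * J.1 * f ^ (r - 1), fun y => by simp [hinv, J.2.sq, hinv', map_smul], fun a b => by
        simp only [Module.End.mul_apply]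
        conv_lhs => rw [← hinv' b]
        conv_rhs => rw [← hinv' a]
        simp only [← QuadraticMap.polarBilin_apply_apply, hs.iso]
        exact J.2.adj _ _⟩
    have hkey : ∀ i J, ((φ ^ i) J).1 = f ^ i * J.1 * (f ^ (r - 1)) ^ i := by
      intro i
      induction i with
      | zero => intro J; simp [pow_zero]; rfl
      | succ i ih =>
        intro J
        rw [pow_succ' φ, pow_succ' f, pow_succ (f ^ (r - 1))]
        show f * ((φ ^ i) J).1 * f ^ (r - 1) = _
        rw [ih]
        simp only [mul_assoc]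
    have hφ : φ ^ r ^ 1 = 1 := funext fun J => Subtype.ext (by
      rw [pow_one, hkey, hs.pow, ← pow_mul, mul_comm (r - 1), pow_mul, hs.pow, one_pow, one_mul, mul_one]; rfl)
    have h1 := Equiv.Perm.card_fixedPoints_modEq hφ
    have hcomm : ∀ J : φ.fixedPoints, f * J.1.1 = J.1.1 * f := fun J => by
      have h : f * J.1.1 * f ^ (r - 1) = J.1.1 := congrArg Subtype.val J.2
      conv_rhs => rw [← h]
      rw [mul_assoc _ (f ^ (r - 1)), ← pow_succ, Nat.sub_add_cancel hr.out.one_le, hs.pow, mul_one]
    have hJM : ∀ J : φ.fixedPoints, ∀ y ∈ M, J.1.1 y ∈ M := by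
      rintro J _ ⟨a, rfl⟩
      refine ⟨J.1.1 a, ?_⟩
      have h := LinearMap.congr_fun (hcomm J) a
      simp only [Module.End.mul_apply] at h
      simp [h]
    have hJO : ∀ J : φ.fixedPoints, ∀ y ∈ O, J.1.1 y ∈ O := fun J y hy => mem_orth.2 fun a ha => by
      rw [← J.1.2.adj]; exact mem_orth.1 hy _ (hJM J a ha)
    let A : Bool → Module.End F M := fun c => (bif c then g else -g).restrict fun y hy => by
      cases c
      · exact M.neg_mem (hgM y hy)
      · exact hgM y hy
    have hA : ∀ c (a : M), ((A c a : M) : V) = bif c then g (a : V) else -g (a : V) := fun c a => by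
      cases c <;> rfl
    have hAstr : ∀ c, IsStr (Q.comp M.subtype) δ (A c) := fun c =>
      ⟨fun y => Subtype.ext (by
          cases c <;> simp [hA, map_neg, hg2 _ y.2]),
        fun a b => by
          rw [polar_comp', polar_comp', hA, hA]
          cases c <;> simp [QuadraticMap.polar_neg_left, QuadraticMap.polar_neg_right, hgadj _ a.2 _ b.2]⟩
    let Φ : φ.fixedPoints → Bool × {B : Module.End F O // IsStr (Q.comp O.subtype) δ B} := fun J =>
      (decide (∀ y ∈ M, J.1.1 y = g y),
        ⟨J.1.1.restrict (hJO J), fun y => Subtype.ext (J.1.2.sq _), fun a b => J.1.2.adj _ _⟩)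
    obtain ⟨u₁, hu₁, hu₁0⟩ := Submodule.exists_mem_ne_zero_of_ne_bot (show M ≠ ⊥ from fun h => by
      rw [h, finrank_bot] at hfd; omega)
    have hΦ : Function.Bijective Φ := by
      refine ⟨fun J J' h => ?_, fun ⟨c, B⟩ => ?_⟩
      · have h1 := congrArg Prod.fst h
        have h2' := congrArg (fun p => p.2.1) h
        simp only [Φ, decide_eq_decide] at h1 h2'
        refine Subtype.ext (Subtype.ext (LinearMap.ext fun y => ?_))
        obtain ⟨a, b, rfl⟩ := decomp hMn y
        have hb : J.1.1 (b : V) = J'.1.1 (b : V) := congrArg Subtype.val (LinearMap.congr_fun h2' b)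
        rw [map_add, map_add, hb]
        congr 1
        rcases huniq _ (hcomm J) J.1.2.sq with ha | ha
        · rw [ha a a.2, (h1.1 ha) a a.2]
        · rcases huniq _ (hcomm J') J'.1.2.sq with ha' | ha'
          · rw [ha' a a.2, (h1.2 ha') a a.2]
          · rw [ha a a.2, ha' a a.2]
      · obtain ⟨T, hTA, hTB⟩ := exists_glue hMn (A c) B.1
        have hT := isStr_glue hMn (hAstr c) B.2 hTA hTB
        have hTf : f * T = T * f := LinearMap.ext fun y => by
          obtain ⟨a, b, rfl⟩ := decomp hMn y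
          simp only [Module.End.mul_apply, map_add, hTA, hTB, hOfix b b.2, hOfix _ (B.1 b).2]
          rw [show T (f (a : V)) = _ from hTA ⟨f a, moved_map_le ⟨a, a.2, rfl⟩⟩]
          cases c <;> simp [hA, hgf, map_neg]
        refine ⟨⟨⟨T, hT⟩, Subtype.ext (?_ : f * T * f ^ (r - 1) = T)⟩, Prod.ext ?_ (Subtype.ext ?_)⟩
        · rw [hTf, mul_assoc, ← pow_succ', Nat.sub_add_cancel hr.out.one_le, hs.pow, mul_one]
        · show decide (∀ y ∈ M, T y = g y) = c
          cases c
          · refine decide_eq_false fun h => hu₁0 ?_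
            have h3 := h u₁ hu₁
            rw [show T u₁ = _ from hTA ⟨u₁, hu₁⟩, hA] at h3
            have h4 : g u₁ = 0 := by
              have : (2 : F) • g u₁ = 0 := by
                simp only [cond_false] at h3
                linear_combination (norm := module) -h3
              exact (smul_eq_zero.1 this).resolve_left h2
            have := hg2 u₁ hu₁
            rw [h4, map_zero, eq_comm, smul_eq_zero] at this
            exact this.resolve_left fun h => hδ (h ▸ ⟨0, by simp⟩)
          · exact decide_eq_true fun y hy => by rw [show T y = _ from hTA ⟨y, hy⟩, hA]; rfl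
        · exact LinearMap.ext fun b => Subtype.ext (hTB b)
    have h3 : r ∣ Nat.card φ.fixedPoints := by
      rw [Nat.card_eq_fintype_card, Nat.dvd_iff_mod_eq_zero]
      rw [Nat.card_eq_fintype_card] at hdvd
      exact (show _ % r = _ % r from h1.symm).trans (Nat.dvd_iff_mod_eq_zero.1 hdvd)
    rw [Nat.card_eq_of_bijective Φ hΦ, Nat.card_prod, Nat.card_eq_fintype_card (α := Bool), Fintype.card_bool] at h3
    rcases hr.out.dvd_mul.1 h3 with h4 | h4
    · exact hr2 ((Nat.prime_dvd_prime_iff_eq hr.out Nat.prime_two).1 h4)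
    · refine ih (finrank F O) (by omega) (Q.comp O.subtype) (nondegIn_comp' hsp.2.1) rfl ?_ h4
      have hpe : Even (pieceDim F r) := QuadIsometry.even_pieceDim F r
      exact (Nat.even_add.1 (hspd ▸ hev : Even (pieceDim F r + finrank F O))).1 hpe

end CfsgLib.C3Derange
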