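import Cfsg.Agent.C3Derange.OrthCount
import Cfsg.Agent.Classical.Orth.Index
import Cfsg.Agent.FieldExtMax.MatrixForm
import Cfsg.Agent.Classical.Semisimple.Bridge

/-!
Elements of prime order of `Ω` of a quadratic space of even dimension over a finite field of odd order,
and the normalisers of self-adjoint quadratic extension fields: exactly the involutions always fix one.
-/

set_option autoImplicit false
set_option linter.style.haveILetI false
set_option linter.unusedSectionVars false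

namespace CfsgLib.C3Derange

open Module Matrix CfsgLib.OrthGeo CfsgLib.Classical.Semisimple.QuadType
open CfsgLib.Classical.Semisimple.QuadIsometry (Setting moved fixed pieceDim ordq)

variable {ι : Type} [Fintype ι] [DecidableEq ι] {F : Type*} [Field F]
variable {Qf : (ι → F) → F}

local notation "pol" => QuadraticMap.polar

/-- A quadratic form given as a function, bundled. -/
noncomputable def qform (hQ : Cfsg.Geo.IsNondegenerateQuadraticForm Qf) : QuadraticForm F (ι → F) :=
  QuadraticMap.ofPolar Qf (fun c x => by rw [hQ.smul, smul_eq_mul, sq]) hQ.polar_bilinear.add_left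
    (fun c x y => by simpa [smul_eq_mul] using hQ.polar_bilinear.smul_left c x y)

theorem qform_apply (hQ : Cfsg.Geo.IsNondegenerateQuadraticForm Qf) (y : ι → F) : qform hQ y = Qf y := rfl

theorem polar_qform (hQ : Cfsg.Geo.IsNondegenerateQuadraticForm Qf) (a b : ι → F) :
    pol (qform hQ) a b = bform hQ a b := rfl

theorem nondeg_qform (hQ : Cfsg.Geo.IsNondegenerateQuadraticForm Qf) : NondegIn (qform hQ) ⊤ := fun x _ h => by
  by_contra hx
  obtain ⟨⟨y, hy⟩, -⟩ := hQ.nondegenerate x hx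
  exact hy (by rw [QuadraticMap.polar_comm]; exact h y trivial)

/-- The data of a self-adjoint quadratic field. -/
structure KStr (hQ : Cfsg.Geo.IsNondegenerateQuadraticForm Qf) (K : Subalgebra F (Matrix ι ι F))
    (J : Matrix ι ι F) (δ : F) : Prop where
  mem : J ∈ K
  sq : J * J = δ • 1
  nonsq : ¬ IsSquare δ
  str : IsStr (qform hQ) δ (Matrix.toLin' J)
  gen : ∀ l ∈ K, ∃ a b : F, l = a • 1 + b • J
  indep : ∀ a b : F, a • (1 : Matrix ι ι F) + b • J = 0 → a = 0 ∧ b = 0

variable [Fintype F] {K : Subalgebra F (Matrix ι ι F)}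

theorem exists_kStr (hQ : Cfsg.Geo.IsNondegenerateQuadraticForm Qf) [Nonempty ι]
    (h2 : (2 : F) ≠ 0) (hK : Cfsg.Geo.IsFieldSubalgebra 2 K)
    (hKf : Cfsg.Geo.IsSelfAdjointFor (QuadraticMap.polar Qf) K) :
    ∃ (J : Matrix ι ι F) (δ : F), KStr hQ K J δ := by
  classical
  have hch : ringChar F ≠ 2 := ringChar_ne_two h2
  obtain ⟨δ, hδ⟩ := FiniteField.exists_nonsquare hch
  letI : Field K := FieldExtMax.fieldOf hK
  haveI : Fintype K := Fintype.ofFinite K
  have hcard : Fintype.card K = Fintype.card F ^ 2 := by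
    rw [← Nat.card_eq_fintype_card, Module.natCard_eq_pow_finrank (K := F), Nat.card_eq_fintype_card,
      hK.finrank_eq]
  have hδ0 : δ ≠ 0 := fun h => hδ (h ▸ ⟨0, by simp⟩)
  obtain ⟨J, hJ⟩ : IsSquare (algebraMap F K δ) := by
    rw [FiniteField.isSquare_iff (by rwa [← Algebra.ringChar_eq F K]) (by simpa using hδ0), hcard]
    obtain ⟨m, hm⟩ : ∃ m, Fintype.card F = 2 * m + 1 :=
      ⟨Fintype.card F / 2, by have := FiniteField.odd_card_of_char_ne_two hch; omega⟩
    rw [← map_pow, hm, show (2 * m + 1) ^ 2 / 2 = (2 * m) * (m + 1) by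
      rw [show (2 * m + 1) ^ 2 = 2 * ((2 * m) * (m + 1)) + 1 by ring]; omega, pow_mul,
      show 2 * m = Fintype.card F - 1 by omega, FiniteField.pow_card_sub_one_eq_one δ hδ0, one_pow, map_one]
  have hJJ : J.1 * J.1 = δ • (1 : Matrix ι ι F) := by
    have h1 := congrArg Subtype.val hJ
    rw [Subalgebra.coe_algebraMap, Algebra.algebraMap_eq_smul_one] at h1
    exact h1.symm
  have hcoef : ∀ a b : F, a • (1 : Matrix ι ι F) + b • J.1 = 0 → a = 0 ∧ b = 0 := by
    intro a b h
    obtain ⟨i⟩ := ‹Nonempty ι›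
    by_cases hb : b = 0
    · subst hb
      have := congrFun (congrFun h i) i
      exact ⟨by simpa using this, rfl⟩
    · refine absurd ⟨-(a / b), ?_⟩ hδ
      have hJm : J.1 = (-(a / b)) • (1 : Matrix ι ι F) := by
        have h1 := congrArg (fun M : Matrix ι ι F => b⁻¹ • M) h
        simp only [smul_add, smul_smul, smul_zero, inv_mul_cancel₀ hb, one_smul] at h1
        rw [eq_neg_of_add_eq_zero_right h1, neg_smul, div_eq_inv_mul]
      have h3 := congrFun (congrFun hJJ i) i
      rw [hJm] at h3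
      simpa [Matrix.mul_apply, Matrix.one_apply] using h3.symm
  have hli : LinearIndependent F ![(1 : K), J] :=
    LinearIndependent.pair_iff.2 fun s t h => hcoef s t (congrArg Subtype.val h)
  refine ⟨J.1, δ, J.2, hJJ, hδ, ⟨fun y => ?_, fun a b => hKf J.1 J.2 a b⟩, fun l hl => ?_, hcoef⟩
  · rw [Matrix.toLin'_apply, Matrix.toLin'_apply, Matrix.mulVec_mulVec, hJJ, Matrix.smul_mulVec,
      Matrix.one_mulVec]
  · have hspan := hli.span_eq_top_of_card_eq_finrank (by simp [hK.finrank_eq])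
    obtain ⟨c, hc⟩ := (Submodule.mem_span_range_iff_exists_fun F).1
      (hspan ▸ Submodule.mem_top : (⟨l, hl⟩ : K) ∈ Submodule.span F (Set.range ![(1 : K), J]))
    exact ⟨c 0, c 1, by simpa [Fin.sum_univ_two] using (congrArg Subtype.val hc).symm⟩

variable {hQ : Cfsg.Geo.IsNondegenerateQuadraticForm Qf} {J : Matrix ι ι F} {δ : F}

theorem KStr.mem_normalizer (hK : Cfsg.Geo.IsFieldSubalgebra 2 K) [Nonempty ι] (hS : KStr hQ K J δ)
    {x : GL ι F} {s : F} (h : (x : Matrix ι ι F) * J = s • (J * (x : Matrix ι ι F))) :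
    x ∈ Cfsg.Geo.subalgebraNormalizer K := by
  refine (FieldExtMax.mem_normalizer_iff hK _).2 fun l hl => ?_
  obtain ⟨a, b, rfl⟩ := hS.gen l hl
  refine ⟨a • 1 + (b * s) • J, K.add_mem (K.smul_mem K.one_mem a) (K.smul_mem hS.mem _), fun y => ?_⟩
  rw [Matrix.mulVec_mulVec, Matrix.mulVec_mulVec, mul_add, add_mul, mul_smul_comm, mul_smul_comm, h,
    smul_mul_assoc, smul_mul_assoc, mul_one, one_mul, smul_smul]

theorem KStr.commute_of_mem (hK : Cfsg.Geo.IsFieldSubalgebra 2 K) [Nonempty ι] (h2 : (2 : F) ≠ 0)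
    (hS : KStr hQ K J δ) {x : GL ι F} (hx : x ∈ Cfsg.Geo.subalgebraNormalizer K)
    {r : ℕ} (hr : Odd r) (hxr : x ^ r = 1) : (x : Matrix ι ι F) * J = J * (x : Matrix ι ι F) := by
  classical
  have hδ0 : δ ≠ 0 := fun h => hS.nonsq (h ▸ ⟨0, by simp⟩)
  obtain ⟨k', hk', he⟩ := (FieldExtMax.mem_normalizer_iff hK x).1 hx J hS.mem
  obtain ⟨a, b, rfl⟩ := hS.gen k' hk'
  set L : Matrix ι ι F := a • 1 + b • J with hL
  have hxJ : (x : Matrix ι ι F) * J = L * (x : Matrix ι ι F) := Matrix.ext_of_mulVec_single fun i => by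
    rw [← Matrix.mulVec_mulVec, he, Matrix.mulVec_mulVec]
  have hu : IsUnit (x : Matrix ι ι F) := x.isUnit
  have hsq : L * L = δ • 1 := hu.mul_left_injective (by
    show L * L * (x : Matrix ι ι F) = δ • 1 * (x : Matrix ι ι F)
    rw [mul_assoc, ← hxJ, ← mul_assoc, ← hxJ, mul_assoc, hS.sq, mul_smul_comm, mul_one, smul_mul_assoc,
      one_mul])
  obtain ⟨h1, h3⟩ := hS.indep (a * a + b * b * δ - δ) (2 * a * b) (by
    rw [hL, add_mul, mul_add, mul_add, smul_mul_smul_comm, smul_mul_smul_comm, smul_mul_smul_comm,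
      smul_mul_smul_comm, hS.sq, one_mul, one_mul, mul_one, smul_smul] at hsq
    linear_combination (norm := module) hsq)
  have ha : a = 0 := by
    rcases mul_eq_zero.1 h3 with h | h
    · exact (mul_eq_zero.1 h).resolve_left h2
    · exfalso
      exact hS.nonsq ⟨a, by rw [h] at h1; linear_combination -h1⟩
  subst ha
  have hb : b * b = 1 := mul_right_cancel₀ hδ0 (by linear_combination h1)
  have hL' : L = b • J := by rw [hL, zero_smul, zero_add]
  rw [hL', smul_mul_assoc] at hxJ
  rcases mul_self_eq_one_iff.1 hb with rfl | rfl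
  · rwa [one_smul] at hxJ
  · exfalso
    have hn : ∀ n : ℕ, (x : Matrix ι ι F) ^ n * J = ((-1 : F) ^ n) • (J * (x : Matrix ι ι F) ^ n) := by
      intro n
      induction n with
      | zero => simp
      | succ n ih =>
        rw [pow_succ, mul_assoc, hxJ, mul_smul_comm, ← mul_assoc, ih, smul_mul_assoc, smul_smul, mul_assoc,
          pow_succ (-1 : F)]
        congr 1
        ring
    have h4 := hn r
    rw [← Units.val_pow_eq_pow_val, hxr, Units.val_one, one_mul, mul_one, hr.neg_one_pow] at h4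
    have := hS.indep 0 2 (by linear_combination (norm := module) h4)
    exact h2 this.2

/-- The element of the general linear group of a linear automorphism. -/
noncomputable def glOf (g : (ι → F) ≃ₗ[F] (ι → F)) : GL ι F :=
  ⟨LinearMap.toMatrix' (g : (ι → F) →ₗ[F] (ι → F)), LinearMap.toMatrix' (g.symm : (ι → F) →ₗ[F] (ι → F)),
    by rw [← LinearMap.toMatrix'_comp]; simp, by rw [← LinearMap.toMatrix'_comp]; simp⟩

omit [Fintype F] in
theorem glOf_mulVec (g : (ι → F) ≃ₗ[F] (ι → F)) (y : ι → F) : (glOf g : Matrix ι ι F) *ᵥ y = g y :=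
  LinearMap.toMatrix'_mulVec _ _

omit [Fintype F] in
theorem conj_mulVec (g : GL ι F) (M : Matrix ι ι F) (y : ι → F) :
    ((g : Matrix ι ι F) * M * ((g⁻¹ : GL ι F) : Matrix ι ι F)) *ᵥ ((g : Matrix ι ι F) *ᵥ y) =
      (g : Matrix ι ι F) *ᵥ (M *ᵥ y) := by
  rw [Matrix.mulVec_mulVec, mul_assoc, mul_assoc, ← Units.val_mul, inv_mul_cancel, Units.val_one, mul_one,
    ← Matrix.mulVec_mulVec]

theorem isStr_conj {g : GL ι F} (hg : g ∈ Cfsg.isometryGroup F Qf) {M : Matrix ι ι F}
    (hM : IsStr (qform hQ) δ (Matrix.toLin' M)) :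
    IsStr (qform hQ) δ (Matrix.toLin' ((g : Matrix ι ι F) * M * ((g⁻¹ : GL ι F) : Matrix ι ι F))) := by
  have hsurj : ∀ y : ι → F, ∃ z, y = (g : Matrix ι ι F) *ᵥ z := fun y => ⟨_, (mulVec_inv_cancel g y).symm⟩
  refine ⟨fun y => ?_, fun a b => ?_⟩
  · obtain ⟨z, rfl⟩ := hsurj y
    simp only [Matrix.toLin'_apply, conj_mulVec]
    rw [← Matrix.toLin'_apply M, ← Matrix.toLin'_apply M, hM.sq, Matrix.mulVec_smul]
  · obtain ⟨z, rfl⟩ := hsurj a
    obtain ⟨w, rfl⟩ := hsurj b
    simp only [Matrix.toLin'_apply, conj_mulVec, polar_qform, isometry_b hQ hg]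
    exact hM.adj z w

/-- Every structure is conjugate to the given one. -/
theorem KStr.exists_conj_gl (h2 : (2 : F) ≠ 0) (hS : KStr hQ K J δ) {T : Module.End F (ι → F)}
    (hT : IsStr (qform hQ) δ T) :
    ∃ g ∈ Cfsg.isometryGroup F Qf,
      Matrix.toLin' ((g : Matrix ι ι F) * J * ((g⁻¹ : GL ι F) : Matrix ι ι F)) = T := by
  obtain ⟨e, he, heJ⟩ := exists_conj h2 hS.nonsq _ (qform hQ) (Matrix.toLin' J) T (nondeg_qform hQ) le_rfl hS.str hT
  refine ⟨glOf e, mem_isometryGroup.2 fun y => ?_, LinearMap.ext fun y => ?_⟩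
  · rw [glOf_mulVec]; exact he y
  · obtain ⟨z, rfl⟩ : ∃ z, y = e z := ⟨_, (e.apply_symm_apply y).symm⟩
    have h := conj_mulVec (glOf e) J z
    rw [glOf_mulVec, glOf_mulVec] at h
    rw [Matrix.toLin'_apply, h, ← Matrix.toLin'_apply J, heJ]

omit [Fintype F] in
/-- Reflections in vectors of an `x`-plane reverse `x` on it. -/
theorem refl_plane {x : GL ι F} (hx : x ∈ Cfsg.isometryGroup F Qf) (h2 : (2 : F) ≠ 0)
    (hxx : ∀ y, (x : Matrix ι ι F) *ᵥ ((x : Matrix ι ι F) *ᵥ y) = -y) {W : Submodule F (ι → F)}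
    (hW : finrank F W = 2) (hxW : ∀ y ∈ W, (x : Matrix ι ι F) *ᵥ y ∈ W) {u : ι → F} (hu : u ∈ W)
    (hQu : Qf u ≠ 0) : ∀ z ∈ W, (x : Matrix ι ι F) *ᵥ ((reflection hQ hQu : Matrix ι ι F) *ᵥ z) =
      -((reflection hQ hQu : Matrix ι ι F) *ᵥ ((x : Matrix ι ι F) *ᵥ z)) := by
  classical
  set X := (x : Matrix ι ι F)
  have hux : bform hQ u (X *ᵥ u) = 0 := by
    have h := isometry_b hQ hx u (X *ᵥ u)
    rw [hxx, map_neg, b_symm hQ] at h
    exact (mul_eq_zero.1 (show (2 : F) * bform hQ u (X *ᵥ u) = 0 by linear_combination -h)).resolve_left h2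
  have hli : LinearIndependent F ![u, X *ᵥ u] := LinearIndependent.pair_iff.2 fun a b h => by
    have h1 := congrArg (bform hQ u) h
    rw [map_add, map_smul, map_smul, hux, b_self hQ, map_zero, smul_zero, add_zero, smul_eq_mul] at h1
    have ha : a = 0 := (mul_eq_zero.1 h1).resolve_right (mul_ne_zero h2 hQu)
    subst ha
    rw [zero_smul, zero_add, smul_eq_zero] at h
    exact ⟨rfl, h.resolve_right fun h0 => hQu (by
      have := mem_isometryGroup.1 hx u
      rw [h0, q_zero hQ] at this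
      exact this.symm)⟩
  intro z hz
  have hspan : Submodule.span F (Set.range ![u, X *ᵥ u]) = W := by
    refine Submodule.eq_of_le_of_finrank_eq (Submodule.span_le.2 ?_) (by
      rw [finrank_span_eq_card hli, hW, Fintype.card_fin])
    rintro _ ⟨i, rfl⟩
    fin_cases i
    · exact hu
    · exact hxW u hu
  obtain ⟨c, rfl⟩ := (Submodule.mem_span_range_iff_exists_fun F).1 (hspan ▸ hz)
  rw [Fin.sum_univ_two]
  simp only [Matrix.cons_val_zero, Matrix.cons_val_one]
  simp only [reflection_mulVec hQ hQu, Matrix.mulVec_add, Matrix.mulVec_sub, Matrix.mulVec_smul, hxx, map_add,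
    map_smul, map_neg, smul_eq_mul, hux, b_self hQ]
  match_scalars <;> field_simp <;> ring

/-- A property of structures closed under enough reflections reaches an `Ω`-conjugate. -/
theorem KStr.exists_omega (h2 : (2 : F) ≠ 0) (hS : KStr hQ K J δ) (hn : 2 ≤ Fintype.card ι)
    (W : Submodule F (ι → F)) (hW : NondegIn (qform hQ) W) (hWd : 2 ≤ finrank F W)
    (P : Matrix ι ι F → Prop)
    (hP : ∀ u ∈ W, ∀ hu : Qf u ≠ 0, ∀ M, P M → P ((reflection hQ hu : Matrix ι ι F) * M *
      (((reflection hQ hu)⁻¹ : GL ι F) : Matrix ι ι F)))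
    {g₀ : GL ι F} (hg₀ : g₀ ∈ Cfsg.isometryGroup F Qf)
    (h0 : P ((g₀ : Matrix ι ι F) * J * ((g₀⁻¹ : GL ι F) : Matrix ι ι F))) :
    ∃ g ∈ Cfsg.Geo.omegaGL Qf, P ((g : Matrix ι ι F) * J * ((g⁻¹ : GL ι F) : Matrix ι ι F)) := by
  classical
  have hexc : ¬ (Nat.card F = 2 ∧ Fintype.card ι = 4) := Classical.Orth.not_exc_of_two_ne_zero h2
  obtain ⟨ε, hε⟩ := FiniteField.exists_nonsquare (F := F) (ringChar_ne_two h2)
  have hε0 : ε ≠ 0 := by rintro rfl; exact hε IsSquare.zero
  obtain ⟨u, huW, hu⟩ := exists_value hW hWd 1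
  obtain ⟨w, hwW, hw⟩ := exists_value hW hWd ε
  have hu0 : Qf u ≠ 0 := by rw [show Qf u = 1 from hu]; exact one_ne_zero
  have hw0 : Qf w ≠ 0 := by rw [show Qf w = ε from hw]; exact hε0
  obtain ⟨cl, hcl⟩ : ∃ cl, cl = Classical.Orth.classHom hQ hexc := ⟨_, rfl⟩
  have hne : ∀ y : Multiplicative (ZMod 2), y ≠ 1 → y = Multiplicative.ofAdd 1 := by decide
  have e1 : cl (Classical.Orth.refl hQ hu0) = (Multiplicative.ofAdd 1, 1) := hcl ▸
    Prod.ext (Classical.Orth.classHom_refl_fst hQ hexc hu0)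
      ((Classical.Orth.classHom_refl_snd hQ hexc hu0).2 (by rw [show Qf u = 1 from hu]; exact IsSquare.one))
  have e2 : cl (Classical.Orth.refl hQ hw0) = (Multiplicative.ofAdd 1, Multiplicative.ofAdd 1) := hcl ▸
    Prod.ext (Classical.Orth.classHom_refl_fst hQ hexc hw0)
      (hne _ fun he => hε (by rw [← show Qf w = ε from hw]; exact (Classical.Orth.classHom_refl_snd hQ hexc hw0).1 he))
  have step : ∀ (a : GL ι F), P ((a : Matrix ι ι F) * J * ((a⁻¹ : GL ι F) : Matrix ι ι F)) →
      ∀ {v : ι → F} (hv : Qf v ≠ 0), v ∈ W →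
        P (((reflection hQ hv * a : GL ι F) : Matrix ι ι F) * J * (((reflection hQ hv * a)⁻¹ : GL ι F) : Matrix ι ι F)) := by
    intro a ha v hv hvW
    have h := hP v hvW hv _ ha
    simpa [_root_.mul_inv_rev, Units.val_mul, mul_assoc] using h
  set y := cl ⟨g₀, hg₀⟩ with hy
  have hfin : ∀ g : Cfsg.isometryGroup F Qf, cl g = 1 → (g : GL ι F) ∈ Cfsg.Geo.omegaGL Qf := fun g hg =>
    ⟨g, (Classical.Orth.ker_classHom hQ hexc).le (hcl ▸ hg), rfl⟩
  have hcases : ∀ z : Multiplicative (ZMod 2) × Multiplicative (ZMod 2), z = 1 ∨ z = (Multiplicative.ofAdd 1, 1) ∨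
      z = (Multiplicative.ofAdd 1, Multiplicative.ofAdd 1) ∨ z = (1, Multiplicative.ofAdd 1) := by decide
  rcases hcases y with h | h | h | h
  · exact ⟨g₀, hfin ⟨g₀, hg₀⟩ h, h0⟩
  · have hm : cl (Classical.Orth.refl hQ hu0 * ⟨g₀, hg₀⟩) = 1 := by rw [map_mul, e1, ← hy, h]; decide
    have hmem := hfin _ hm
    rw [Subgroup.coe_mul, Classical.Orth.coe_refl hQ] at hmem
    exact ⟨_, hmem, step g₀ h0 hu0 huW⟩
  · have hm : cl (Classical.Orth.refl hQ hw0 * ⟨g₀, hg₀⟩) = 1 := by rw [map_mul, e2, ← hy, h]; decide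
    have hmem := hfin _ hm
    rw [Subgroup.coe_mul, Classical.Orth.coe_refl hQ] at hmem
    exact ⟨_, hmem, step g₀ h0 hw0 hwW⟩
  · have hm : cl (Classical.Orth.refl hQ hu0 * (Classical.Orth.refl hQ hw0 * ⟨g₀, hg₀⟩)) = 1 := by
      rw [map_mul, map_mul, e1, e2, ← hy, h]; decide
    have hmem := hfin _ hm
    rw [Subgroup.coe_mul, Subgroup.coe_mul, Classical.Orth.coe_refl hQ, Classical.Orth.coe_refl hQ] at hmem
    exact ⟨_, hmem, step _ (step g₀ h0 hw0 hwW) hu0 huW⟩

/-- Every involution of `PΩ` fixes a point. -/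
theorem KStr.involution_fixes (hK : Cfsg.Geo.IsFieldSubalgebra 2 K) [Nonempty ι] (h2 : (2 : F) ≠ 0)
    (hn : Even (Fintype.card ι)) (hS : KStr hQ K J δ) {x : GL ι F} (hx : x ∈ Cfsg.Geo.omegaGL Qf) {z : F}
    (hz : ((x ^ 2 : GL ι F) : Matrix ι ι F) = z • 1) :
    ∃ g ∈ Cfsg.Geo.omegaGL Qf, g⁻¹ * x * g ∈ Cfsg.Geo.subalgebraNormalizer K := by
  classical
  have hn0 : 0 < Fintype.card ι := Fintype.card_pos
  have hn2 : 2 ≤ Fintype.card ι := by obtain ⟨a, ha⟩ := hn; omega
  have hexc : ¬ (Nat.card F = 2 ∧ Fintype.card ι = 4) := Classical.Orth.not_exc_of_two_ne_zero h2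
  have hxO : x ∈ Cfsg.isometryGroup F Qf := omegaGL_le hx
  set X : Matrix ι ι F := (x : Matrix ι ι F) with hX
  have hXq : ∀ y, Qf (X *ᵥ y) = Qf y := mem_isometryGroup.1 hxO
  have hXX : ∀ y, X *ᵥ (X *ᵥ y) = z • y := fun y => by
    rw [Matrix.mulVec_mulVec, hX, ← Units.val_mul, ← pow_two, hz, Matrix.smul_mulVec, Matrix.one_mulVec]
  obtain ⟨v, hv⟩ := exists_q_ne_zero (nondeg_qform hQ) (by rwa [finrank_fintype_fun_eq_card])
  have hzz : z * z = 1 := by
    have h := hXq (X *ᵥ v)
    rw [hXX, q_smul hQ, pow_two, hXq] at h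
    exact mul_right_cancel₀ (b := qform hQ v) hv (by rw [one_mul]; exact h)

  have finish : ∀ (g : GL ι F) (s : F), g ∈ Cfsg.Geo.omegaGL Qf →
      X * ((g : Matrix ι ι F) * J * ((g⁻¹ : GL ι F) : Matrix ι ι F)) =
        s • ((g : Matrix ι ι F) * J * ((g⁻¹ : GL ι F) : Matrix ι ι F) * X) →
      ∃ g ∈ Cfsg.Geo.omegaGL Qf, g⁻¹ * x * g ∈ Cfsg.Geo.subalgebraNormalizer K := by
    intro g s hg h
    refine ⟨g, hg, hS.mem_normalizer hK (s := s) ?_⟩
    have h1 := congrArg (fun M => ((g⁻¹ : GL ι F) : Matrix ι ι F) * M * (g : Matrix ι ι F)) h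
    simp only [mul_smul_comm, smul_mul_assoc] at h1
    have c1 : ∀ M : Matrix ι ι F, ((g⁻¹ : GL ι F) : Matrix ι ι F) * ((g : Matrix ι ι F) * M) = M := fun M => by
      rw [← mul_assoc, ← Units.val_mul, inv_mul_cancel, Units.val_one, one_mul]
    have c2 : ((g⁻¹ : GL ι F) : Matrix ι ι F) * (g : Matrix ι ι F) = 1 := by
      rw [← Units.val_mul, inv_mul_cancel, Units.val_one]
    simp only [mul_assoc, c2, mul_one, c1] at h1
    simp only [Units.val_mul, mul_assoc]
    exact h1
  rcases mul_self_eq_one_iff.1 hzz with rfl | rfl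
  · simp only [one_smul] at hXX
    set E : Module.End F (ι → F) := Matrix.toLin' X with hE
    have heW : Even (finrank F (LinearMap.ker (E + 1))) := by
      obtain ⟨g, hg, hgx⟩ := hx
      have h1 := (Classical.Orth.invariants_of_mem_omega hQ hexc hg).1
      change (g : GL ι F) = x at hgx
      rw [hgx] at h1
      rw [show LinearMap.ker (E + 1) = Classical.Orth.residual x from ?_]
      · exact h1
      ext y
      rw [LinearMap.mem_ker, Classical.Orth.mem_residual]
      simp only [LinearMap.add_apply, Module.End.one_apply, hE, Matrix.toLin'_apply]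
      constructor
      · intro h
        refine ⟨(2 : F)⁻¹ • y, ?_⟩
        rw [← hX, Matrix.mulVec_smul, eq_neg_of_add_eq_zero_left h]
        match_scalars
        field_simp
        ring
      · rintro ⟨a, rfl⟩
        rw [← hX, Matrix.mulVec_sub, hXX]
        abel
    obtain ⟨T, hT, hTX⟩ := exists_str_comm h2 δ (qform hQ) (nondeg_qform hQ) (X := E)
      (fun y => hXq y) (fun y => hXX y) heW (by rwa [finrank_fintype_fun_eq_card])
    obtain ⟨g₀, hg₀, hg₀T⟩ := hS.exists_conj_gl h2 hT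
    -- an eigenspace
    obtain ⟨W, hW, hWd, σ, hWσ⟩ : ∃ W : Submodule F (ι → F), NondegIn (qform hQ) W ∧ 2 ≤ finrank F W ∧
        ∃ σ : F, ∀ y ∈ W, X *ᵥ y = σ • y := by
      rcases Nat.eq_zero_or_pos (finrank F (LinearMap.ker (E + 1))) with h | h
      · refine ⟨⊤, nondeg_qform hQ, by rwa [finrank_top, finrank_fintype_fun_eq_card], 1, fun y _ => ?_⟩
        have hm : y - X *ᵥ y ∈ LinearMap.ker (E + 1) := by
          rw [LinearMap.mem_ker]
          simp only [LinearMap.add_apply, Module.End.one_apply, hE, Matrix.toLin'_apply, Matrix.mulVec_sub, hXX]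
          abel
        rw [Submodule.finrank_eq_zero.1 h, Submodule.mem_bot, sub_eq_zero] at hm
        rw [one_smul, ← hm]
      · refine ⟨LinearMap.ker (E + 1), fun a ha hperp => ?_, by obtain ⟨c, hc⟩ := heW; omega, -1,
          fun y hy => ?_⟩
        · refine nondeg_qform hQ a trivial fun y _ => ?_
          have haX : X *ᵥ a = -a := eq_neg_of_add_eq_zero_left (by simpa [hE] using ha)
          have hy : y = (2 : F)⁻¹ • (y + X *ᵥ y) + (2 : F)⁻¹ • (y - X *ᵥ y) := by
            match_scalars <;> field_simp <;> ring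
          have h0 : bform hQ a (y + X *ᵥ y) = 0 := by
            have h := isometry_b hQ hxO a (y + X *ᵥ y)
            rw [← hX, haX, Matrix.mulVec_add, hXX, add_comm (X *ᵥ y), map_neg, LinearMap.neg_apply] at h
            exact (mul_eq_zero.1 (show (2 : F) * bform hQ a (y + X *ᵥ y) = 0 by
              linear_combination -h)).resolve_left h2
          rw [polar_qform, hy, map_add, map_smul, map_smul, h0, ← polar_qform hQ a (y - X *ᵥ y),
            hperp _ (by
              rw [LinearMap.mem_ker]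
              simp only [LinearMap.add_apply, Module.End.one_apply, hE, Matrix.toLin'_apply, Matrix.mulVec_sub,
                hXX]
              abel)]
          simp
        · rw [neg_one_smul]
          exact eq_neg_of_add_eq_zero_left (by simpa [hE] using hy)
    obtain ⟨g, hg, hgP⟩ := hS.exists_omega h2 hn2 W hW hWd (fun M => X * M = M * X) (fun u hu hu0 M hM => by
      have hr : X * (reflection hQ hu0 : Matrix ι ι F) = (reflection hQ hu0 : Matrix ι ι F) * X := by
        refine Matrix.ext_of_mulVec_single fun i => ?_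
        generalize (Pi.single i 1 : ι → F) = y
        rw [← Matrix.mulVec_mulVec, ← Matrix.mulVec_mulVec, reflection_mulVec hQ hu0, reflection_mulVec hQ hu0,
          Matrix.mulVec_sub, Matrix.mulVec_smul, hWσ u hu]
        have hb : bform hQ u (X *ᵥ y) = σ * bform hQ u y := by
          have h := isometry_b hQ hxO u (X *ᵥ y)
          rw [← hX, hWσ u hu, hXX, map_smul, LinearMap.smul_apply, smul_eq_mul] at h
          exact h.symm
        rw [hb]
        module
      have hri : X * (((reflection hQ hu0)⁻¹ : GL ι F) : Matrix ι ι F) =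
          (((reflection hQ hu0)⁻¹ : GL ι F) : Matrix ι ι F) * X := by
        rw [inv_eq_of_mul_eq_one_right (Classical.Orth.reflection_mul_self hQ hu0)]
        exact hr
      rw [← mul_assoc, ← mul_assoc, hr, mul_assoc _ X M, hM, mul_assoc _ _ X, ← hri]
      simp only [mul_assoc]) hg₀ (Matrix.toLin'.injective (LinearMap.ext fun y => by
        rw [Matrix.toLin'_mul, Matrix.toLin'_mul _ X, hg₀T]
        simpa [hE] using hTX y))
    exact finish g 1 hg (by rw [one_smul]; exact hgP)
  · simp only [neg_one_smul] at hXX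
    set E : Module.End F (ι → F) := Matrix.toLin' X with hE
    obtain ⟨T, hT, hTX, hplane⟩ := exists_str_anti h2 δ _ (qform hQ) E (nondeg_qform hQ) le_rfl
      (fun y => hXq y) (fun y => hXX y)
    obtain ⟨u₀, hu₀, hTW⟩ := hplane (by rwa [finrank_fintype_fun_eq_card])
    obtain ⟨g₀, hg₀, hg₀T⟩ := hS.exists_conj_gl h2 hT
    have hpol : pol (qform hQ) u₀ (E u₀) = 0 := by
      have h := isometry_b hQ hxO u₀ (X *ᵥ u₀)
      rw [← hX, hXX, map_neg, b_symm hQ] at h
      rw [polar_qform, show E u₀ = X *ᵥ u₀ from rfl]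
      exact (mul_eq_zero.1 (show (2 : F) * bform hQ u₀ (X *ᵥ u₀) = 0 by linear_combination -h)).resolve_left h2
    obtain ⟨hW, hWd⟩ := plane_nondeg h2 hu₀ (show qform hQ (E u₀) ≠ 0 by
      rw [qform_apply, show E u₀ = X *ᵥ u₀ from rfl, hXq]; exact hu₀) hpol
    set W := Submodule.span F ({u₀, E u₀} : Set (ι → F)) with hWdef
    have hXW : ∀ y ∈ W, X *ᵥ y ∈ W := fun y hy => by
      obtain ⟨a, b, rfl⟩ := Submodule.mem_span_pair.1 hy
      refine Submodule.mem_span_pair.2 ⟨-b, a, ?_⟩
      simp only [hE, Matrix.toLin'_apply, Matrix.mulVec_add, Matrix.mulVec_smul, hXX]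
      module
    obtain ⟨g, hg, hgP, -⟩ := hS.exists_omega h2 hn2 W hW hWd.ge
      (fun M => X * M = (-1 : F) • (M * X) ∧ (∀ y ∈ W, M *ᵥ y ∈ W) ∧ ∀ y ∈ orth (qform hQ) W, M *ᵥ y ∈ orth (qform hQ) W)
      (fun u hu hu0 M ⟨hM, hMW, hMO⟩ => by
        have hR := reflection_mulVec hQ hu0
        set R := (reflection hQ hu0 : Matrix ι ι F) with hRdef
        have hRi : (((reflection hQ hu0)⁻¹ : GL ι F) : Matrix ι ι F) = R := by
          rw [inv_eq_of_mul_eq_one_right (Classical.Orth.reflection_mul_self hQ hu0)]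
        have hRW : ∀ y ∈ W, R *ᵥ y ∈ W := fun y hy => by
          rw [hR]; exact W.sub_mem hy (W.smul_mem _ hu)
        have hRO : ∀ y ∈ orth (qform hQ) W, R *ᵥ y = y := fun y hy => by
          rw [hR, show bform hQ u y = 0 from mem_orth.1 hy u hu, mul_zero, zero_smul, sub_zero]
        have hXO : ∀ y ∈ orth (qform hQ) W, X *ᵥ y ∈ orth (qform hQ) W := fun y hy => mem_orth.2 fun a ha => by
          have h := isometry_b hQ hxO (X *ᵥ a) y
          rw [← hX, hXX, map_neg, LinearMap.neg_apply,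
            show bform hQ (X *ᵥ a) y = 0 from mem_orth.1 hy _ (hXW a ha), neg_eq_zero] at h
          exact h
        have hRX : ∀ y ∈ W, X *ᵥ (R *ᵥ y) = -(R *ᵥ (X *ᵥ y)) := refl_plane hxO h2 hXX hWd hXW hu hu0
        have hMX : ∀ y, X *ᵥ (M *ᵥ y) = -(M *ᵥ (X *ᵥ y)) := fun y => by
          rw [Matrix.mulVec_mulVec, hM, neg_one_smul, Matrix.neg_mulVec, ← Matrix.mulVec_mulVec]
        rw [hRi]
        refine ⟨?_, fun y hy => ?_, fun y hy => ?_⟩
        · refine Matrix.ext_of_mulVec_single fun i => ?_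
          generalize (Pi.single i 1 : ι → F) = y
          rw [neg_one_smul, Matrix.neg_mulVec]
          simp only [← Matrix.mulVec_mulVec]
          obtain ⟨a, b, rfl⟩ := decomp hW y
          have ha : X *ᵥ (R *ᵥ (M *ᵥ (R *ᵥ (a : ι → F)))) = -(R *ᵥ (M *ᵥ (R *ᵥ (X *ᵥ (a : ι → F))))) := by
            rw [hRX _ (hMW _ (hRW _ a.2)), hMX, hRX _ a.2, Matrix.mulVec_neg, Matrix.mulVec_neg, Matrix.mulVec_neg,
              neg_neg]
          have hb : X *ᵥ (R *ᵥ (M *ᵥ (R *ᵥ (b : ι → F)))) = -(R *ᵥ (M *ᵥ (R *ᵥ (X *ᵥ (b : ι → F))))) := by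
            rw [hRO b b.2, hRO _ (hMO _ b.2), hMX, hRO _ (hXO _ b.2), hRO _ (hMO _ (hXO _ b.2))]
          simp only [Matrix.mulVec_add, ha, hb]
          abel
        · rw [← Matrix.mulVec_mulVec, ← Matrix.mulVec_mulVec]
          exact hRW _ (hMW _ (hRW _ hy))
        · rw [← Matrix.mulVec_mulVec, ← Matrix.mulVec_mulVec, hRO y hy, hRO _ (hMO _ hy)]
          exact hMO _ hy) hg₀ ⟨Matrix.toLin'.injective (LinearMap.ext fun y => by
            rw [map_smul, Matrix.toLin'_mul, Matrix.toLin'_mul _ X, hg₀T]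
            simpa [hE] using hTX y),
          fun y hy => by
            rw [← Matrix.toLin'_apply, hg₀T]
            exact hTW y hy,
          fun y hy => mem_orth.2 fun a ha => by
            rw [← Matrix.toLin'_apply, hg₀T, ← hT.adj]
            exact mem_orth.1 hy _ (hTW a ha)⟩
    exact finish g (-1) hg hgP

/-- An element of `GL` from an isometry of odd order. -/
theorem exists_omega_of_pow (h2 : (2 : F) ≠ 0) {r : ℕ} (hr : Odd r) {f : Module.End F (ι → F)}
    (hf : ∀ y, qform hQ (f y) = qform hQ y) (hfr : f ^ r = 1) :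
    ∃ x ∈ Cfsg.Geo.omegaGL Qf, x ^ r = 1 ∧ Matrix.toLin' (x : Matrix ι ι F) = f := by
  classical
  have hexc : ¬ (Nat.card F = 2 ∧ Fintype.card ι = 4) := Classical.Orth.not_exc_of_two_ne_zero h2
  have hr1 : 1 ≤ r := hr.pos
  let e : (ι → F) ≃ₗ[F] (ι → F) := LinearEquiv.ofLinearMap f (f ^ (r - 1))
    (by rw [← Module.End.mul_eq_comp, ← pow_succ', Nat.sub_add_cancel hr1, hfr]; rfl)
    (by rw [← Module.End.mul_eq_comp, ← pow_succ, Nat.sub_add_cancel hr1, hfr]; rfl)
  have hlin : Matrix.toLin' (glOf e : Matrix ι ι F) = f := LinearMap.ext fun y => by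
    rw [Matrix.toLin'_apply, glOf_mulVec]; rfl
  have hiso : glOf e ∈ Cfsg.isometryGroup F Qf := mem_isometryGroup.2 fun y => by
    rw [glOf_mulVec]; exact hf y
  have hpow : (glOf e) ^ r = 1 := Units.ext (Matrix.toLin'.injective (by
    rw [Units.val_pow_eq_pow_val, ← Classical.Semisimple.toLin'_pow, hlin, hfr, Units.val_one, Matrix.toLin'_one]
    rfl))
  refine ⟨glOf e, ⟨⟨glOf e, hiso⟩, (Classical.Orth.ker_classHom hQ hexc).le (MonoidHom.mem_ker.2 ?_), rfl⟩, hpow,
    hlin⟩
  obtain ⟨m, hm⟩ := hr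
  set a : Cfsg.isometryGroup F Qf := ⟨glOf e, hiso⟩
  have ha : a = (a ^ (m + 1)) ^ 2 := by
    have har : a ^ r = 1 := Subtype.ext hpow
    rw [← pow_mul, show (m + 1) * 2 = r + 1 by omega, pow_succ, har, one_mul]
  have hsq : ∀ y : Multiplicative (ZMod 2) × Multiplicative (ZMod 2), y ^ 2 = 1 := by decide
  rw [ha, map_pow, hsq]

/-- A root element of order `p`. -/
theorem exists_root_element (hn : 5 ≤ Fintype.card ι) {p : ℕ} [CharP F p] :
    ∃ f : Module.End F (ι → F), (∀ y, qform hQ (f y) = qform hQ y) ∧ f ^ p = 1 ∧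
      (∀ y, pol (qform hQ) (f y - y) y = 0) ∧ finrank F (LinearMap.range (f - 1)) = 2 := by
  classical
  have hfr : finrank F (ι → F) = Fintype.card ι := finrank_fintype_fun_eq_card F
  obtain ⟨u, -, hu0, hu⟩ := exists_singular hQ (S := ⊤) (by rw [finrank_top, hfr]; omega)
  obtain ⟨a, -, ha⟩ := exists_mem_b_ne_zero hQ (S := ⊤) (v := u) fun h =>
    hu0 (nondeg_qform hQ u trivial fun y _ => by rw [polar_qform, b_symm hQ]; exact h y trivial)
  have hdim := finrank_perp_add hQ (Submodule.span F {u, a})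
  have hle : finrank F (Submodule.span F ({u, a} : Set (ι → F))) ≤ 2 :=
    (finrank_span_le_card _).trans (by
      rw [Set.toFinset_insert, Set.toFinset_singleton]; exact Finset.card_le_two)
  obtain ⟨w, hw, hw0, hQw⟩ := exists_singular hQ (S := perp hQ (Submodule.span F {u, a})) (by omega)
  have huw : bform hQ u w = 0 := hw u (Submodule.subset_span (by simp))
  have haw : bform hQ a w = 0 := hw a (Submodule.subset_span (by simp))
  set f : Module.End F (ι → F) := Matrix.toLin' (eichlerMat Qf u w) with hf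
  have hfy : ∀ y, f y = y + bform hQ w y • u - bform hQ u y • w := fun y => by
    rw [hf, Matrix.toLin'_apply, eichlerMat_mulVec hQ, hQw, zero_mul, zero_smul, sub_zero]
  refine ⟨f, fun y => ?_, ?_, fun y => ?_, ?_⟩
  · exact mem_isometryGroup.1 (eichler_mem_isometryGroup hQ hu huw) y
  · have hk : ∀ k : ℕ, eichlerMat Qf u w ^ k = eichlerMat Qf u ((k : F) • w) := by
      intro k
      induction k with
      | zero => rw [Nat.cast_zero, zero_smul, eichlerMat_zero hQ, pow_zero]
      | succ k ih =>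
        rw [pow_succ, ih, eichlerMat_mul hQ hu (by rw [map_smul, huw, smul_zero]) huw, Nat.cast_succ, add_smul,
          one_smul]
    rw [hf, Classical.Semisimple.toLin'_pow, hk, CharP.cast_eq_zero F p, zero_smul, eichlerMat_zero hQ,
      Matrix.toLin'_one]
    rfl
  · rw [polar_qform, hfy, show y + bform hQ w y • u - bform hQ u y • w - y =
      bform hQ w y • u - bform hQ u y • w by abel]
    simp [mul_comm]
  · have hNy : ∀ y, (f - 1) y = bform hQ w y • u - bform hQ u y • w := fun y => by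
      rw [LinearMap.sub_apply, hfy, Module.End.one_apply]; abel
    obtain ⟨b, hb⟩ : ∃ b, bform hQ w b ≠ 0 := by
      by_contra! h
      exact hw0 (nondeg_qform hQ w trivial fun y _ => h y)
    have hua : bform hQ u a ≠ 0 := by rwa [b_symm hQ]
    have hmemw : w ∈ LinearMap.range (f - 1) := by
      refine ⟨(-(bform hQ u a)⁻¹) • a, ?_⟩
      rw [map_smul, hNy, show bform hQ w a = 0 by rw [b_symm hQ]; exact haw, zero_smul, zero_sub, smul_neg, smul_smul,
        neg_mul, inv_mul_cancel₀ hua, neg_smul, neg_neg, one_smul]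
    have hmemu : u ∈ LinearMap.range (f - 1) := by
      have h : bform hQ w b • u ∈ LinearMap.range (f - 1) := by
        have := (LinearMap.range (f - 1)).add_mem (LinearMap.mem_range_self (f - 1) b)
          ((LinearMap.range (f - 1)).smul_mem (bform hQ u b) hmemw)
        rwa [hNy, sub_add_cancel] at this
      have := (LinearMap.range (f - 1)).smul_mem (bform hQ w b)⁻¹ h
      rwa [smul_smul, inv_mul_cancel₀ hb, one_smul] at this
    have hli : LinearIndependent F ![u, w] := LinearIndependent.pair_iff.2 fun s t h => by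
      have h1 := congrArg (bform hQ a) h
      rw [map_add, map_smul, map_smul, haw, map_zero, smul_zero, add_zero, smul_eq_mul] at h1
      have hs : s = 0 := (mul_eq_zero.1 h1).resolve_right ha
      subst hs
      rw [zero_smul, zero_add, smul_eq_zero] at h
      exact ⟨rfl, h.resolve_right hw0⟩
    have he : LinearMap.range (f - 1) = Submodule.span F (Set.range ![u, w]) := by
      refine le_antisymm ?_ (Submodule.span_le.2 ?_)
      · rintro _ ⟨y, rfl⟩
        rw [hNy]
        exact Submodule.sub_mem _ (Submodule.smul_mem _ _ (Submodule.subset_span ⟨0, rfl⟩))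
          (Submodule.smul_mem _ _ (Submodule.subset_span ⟨1, rfl⟩))
      · rintro _ ⟨i, rfl⟩
        fin_cases i
        · exact hmemu
        · exact hmemw
    rw [he, finrank_span_eq_card hli, Fintype.card_fin]

/-- A prime dividing the index divides the number of structures. -/
theorem KStr.dvd_card_str (hK : Cfsg.Geo.IsFieldSubalgebra 2 K) [Nonempty ι] (h2 : (2 : F) ≠ 0)
    (hn : 2 ≤ Fintype.card ι) (hS : KStr hQ K J δ) {r : ℕ} (hr : r.Prime) (hr2 : r ≠ 2)
    (hΩ : r ∣ (Cfsg.Geo.subalgebraNormalizer K).relIndex (Cfsg.Geo.omegaGL Qf)) :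
    r ∣ Nat.card {T : Module.End F (ι → F) // IsStr (qform hQ) δ T} := by
  classical
  let C : Subgroup (Cfsg.isometryGroup F Qf) :=
    { carrier := {g | ((g : GL ι F) : Matrix ι ι F) * J = J * ((g : GL ι F) : Matrix ι ι F)}
      one_mem' := by simp
      mul_mem' := fun {a b} ha hb => by
        simp only [Set.mem_ofPred_eq, Subgroup.coe_mul, Units.val_mul] at *
        rw [mul_assoc, hb, ← mul_assoc, ha, mul_assoc]
      inv_mem' := fun {a} ha => by
        simp only [Set.mem_ofPred_eq, InvMemClass.coe_inv] at *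
        calc (((a : GL ι F)⁻¹ : GL ι F) : Matrix ι ι F) * J
            = (((a : GL ι F)⁻¹ : GL ι F) : Matrix ι ι F) * (J * ((a : GL ι F) : Matrix ι ι F)) *
              (((a : GL ι F)⁻¹ : GL ι F) : Matrix ι ι F) := by
              rw [mul_assoc _ (J * _), mul_assoc J, ← Units.val_mul, mul_inv_cancel, Units.val_one, mul_one]
          _ = J * (((a : GL ι F)⁻¹ : GL ι F) : Matrix ι ι F) := by
              rw [← ha, ← mul_assoc, ← Units.val_mul, inv_mul_cancel, Units.val_one, one_mul] }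
  -- the orbit map
  let Φ : Cfsg.isometryGroup F Qf ⧸ C → {T : Module.End F (ι → F) // IsStr (qform hQ) δ T} :=
    Quotient.lift (fun g => ⟨Matrix.toLin' (((g : GL ι F) : Matrix ι ι F) * J *
        (((g : GL ι F)⁻¹ : GL ι F) : Matrix ι ι F)), isStr_conj g.2 hS.str⟩) fun a b hab => by
      refine Subtype.ext (congrArg Matrix.toLin' ?_)
      have h : (((a⁻¹ * b : Cfsg.isometryGroup F Qf) : GL ι F) : Matrix ι ι F) * J =
          J * (((a⁻¹ * b : Cfsg.isometryGroup F Qf) : GL ι F) : Matrix ι ι F) :=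
        QuotientGroup.leftRel_apply.1 hab
      simp only [Subgroup.coe_mul, InvMemClass.coe_inv, Units.val_mul] at h
      have h' := congrArg (fun M => ((a : GL ι F) : Matrix ι ι F) * M * (((b : GL ι F)⁻¹ : GL ι F) : Matrix ι ι F)) h
      simp only [mul_assoc] at h'
      rw [← mul_assoc ((a : GL ι F) : Matrix ι ι F) (((a : GL ι F)⁻¹ : GL ι F) : Matrix ι ι F), ← Units.val_mul,
        mul_inv_cancel, Units.val_one, one_mul, ← Units.val_mul (b : GL ι F), mul_inv_cancel, Units.val_one,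
        mul_one] at h'
      simp only [mul_assoc]
      exact h'.symm
  have hΦ : Function.Bijective Φ := by
    refine ⟨?_, fun T => ?_⟩
    · rintro ⟨a⟩ ⟨b⟩ h
      refine QuotientGroup.eq.2 ?_
      have h' := Matrix.toLin'.injective (congrArg Subtype.val h)
      have h'' := congrArg (fun M => (((a : GL ι F)⁻¹ : GL ι F) : Matrix ι ι F) * M * ((b : GL ι F) : Matrix ι ι F)) h'
      simp only [mul_assoc] at h''
      rw [← Units.val_mul (b : GL ι F)⁻¹, inv_mul_cancel, Units.val_one, mul_one,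
        ← mul_assoc (((a : GL ι F)⁻¹ : GL ι F) : Matrix ι ι F) ((a : GL ι F) : Matrix ι ι F), ← Units.val_mul,
        inv_mul_cancel, Units.val_one, one_mul] at h''
      show _ * J = J * _
      simp only [Subgroup.coe_mul, InvMemClass.coe_inv, Units.val_mul, mul_assoc]
      exact h''.symm
    · obtain ⟨g, hg, hgT⟩ := hS.exists_conj_gl h2 T.2
      exact ⟨QuotientGroup.mk ⟨g, hg⟩, Subtype.ext hgT⟩
  rw [← Nat.card_eq_of_bijective Φ hΦ, ← Subgroup.index_eq_card]
  set Om := Cfsg.Omega F Qf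
  have hCN : C ≤ (Cfsg.Geo.subalgebraNormalizer K).comap (Cfsg.isometryGroup F Qf).subtype := fun g hg =>
    hS.mem_normalizer hK (s := 1) (by rw [one_smul]; exact hg)
  have h1 : r ∣ C.relIndex Om := by
    refine hΩ.trans ?_
    rw [show Cfsg.Geo.omegaGL Qf = Om.map (Cfsg.isometryGroup F Qf).subtype from rfl, ← Subgroup.relIndex_comap]
    exact Subgroup.relIndex_dvd_of_le_left _ hCN
  have h3 : Om.index = 4 := Classical.Orth.index_omega_odd hQ h2 hn
  have h4 : r ∣ C.index * Om.relIndex C := by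
    have e1 : Om.relIndex C = (Om ⊓ C).relIndex C := (Subgroup.inf_relIndex_right Om C).symm
    have e2 : (Om ⊓ C).relIndex C * C.index = (Om ⊓ C).index := Subgroup.relIndex_mul_index inf_le_right
    have e3 : (Om ⊓ C).relIndex Om * Om.index = (Om ⊓ C).index := Subgroup.relIndex_mul_index inf_le_left
    have e4 : C.relIndex Om = (Om ⊓ C).relIndex Om := (Subgroup.inf_relIndex_left Om C).symm
    rw [mul_comm, e1, e2, ← e3, ← e4]
    exact h1.mul_right _
  rcases hr.dvd_mul.1 h4 with h | h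
  · exact h
  · have h5 : r ∣ 2 ^ 2 := h.trans ((Subgroup.relIndex_dvd_index_of_normal (H := Om) C).trans (by rw [h3]; norm_num))
    exact absurd ((Nat.prime_dvd_prime_iff_eq hr Nat.prime_two).1 (hr.dvd_of_dvd_pow h5)) hr2

/-- Exactly the involutions always fix a point. -/
theorem orth_c3_derange (hQ : Cfsg.Geo.IsNondegenerateQuadraticForm Qf) (hodd : Odd (Fintype.card F))
    (hn : Even (Fintype.card ι)) (hn6 : 6 ≤ Fintype.card ι) (hK : Cfsg.Geo.IsFieldSubalgebra 2 K)
    (hKf : Cfsg.Geo.IsSelfAdjointFor (QuadraticMap.polar Qf) K) {r : ℕ} [Fact r.Prime]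
    (hΩ : r ∣ (Cfsg.Geo.subalgebraNormalizer K).relIndex (Cfsg.Geo.omegaGL Qf)) :
    (∀ x ∈ Cfsg.Geo.omegaGL Qf, (∃ z : F, ((x ^ r : GL ι F) : Matrix ι ι F) = z • (1 : Matrix ι ι F)) →
      (∀ z : F, (x : Matrix ι ι F) ≠ z • (1 : Matrix ι ι F)) →
      ∃ g ∈ Cfsg.Geo.omegaGL Qf, g⁻¹ * x * g ∈ Cfsg.Geo.subalgebraNormalizer K) ↔ r = 2 := by
  classical
  have hrp : r.Prime := Fact.out
  haveI : Nonempty ι := Fintype.card_pos_iff.1 (by omega)
  have h2 : (2 : F) ≠ 0 := Ring.two_ne_zero fun h => by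
    have := FiniteField.even_card_of_char_two h
    rw [Nat.odd_iff] at hodd
    omega
  obtain ⟨J, δ, hS⟩ := exists_kStr hQ h2 hK hKf
  constructor
  swap
  · rintro rfl x hx ⟨z, hz⟩ -
    exact hS.involution_fixes hK h2 hn hx hz
  intro H
  by_contra hr2
  have hrodd : Odd r := hrp.odd_of_ne_two hr2
  have key : ∀ f : Module.End F (ι → F), (∀ y, qform hQ (f y) = qform hQ y) → f ^ r = 1 → f ≠ 1 →
      ∃ e : (ι → F) ≃ₗ[F] (ι → F), (∀ y, qform hQ (e y) = qform hQ y) ∧
        (∀ y, e.conj f (Matrix.toLin' J y) = Matrix.toLin' J (e.conj f y)) := by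
    intro f hf hfr hf1
    obtain ⟨x, hx, hxr, hlin⟩ := exists_omega_of_pow (hQ := hQ) h2 hrodd hf hfr
    have hns : ∀ z : F, (x : Matrix ι ι F) ≠ z • 1 := by
      intro z hz
      obtain ⟨v, hv⟩ := exists_q_ne_zero (nondeg_qform hQ) (by rw [finrank_fintype_fun_eq_card]; omega)
      have hfz : ∀ y, f y = z • y := fun y => by
        rw [← hlin, Matrix.toLin'_apply, hz, Matrix.smul_mulVec, Matrix.one_mulVec]
      have hzz : z * z = 1 := by
        have h := hf v
        rw [hfz, qform_apply, qform_apply, q_smul hQ, pow_two] at h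
        exact mul_right_cancel₀ hv (by rw [one_mul]; exact h)
      have hpow : ∀ n y, (f ^ n) y = z ^ n • y := by
        intro n
        induction n with
        | zero => simp
        | succ n ih => intro y; rw [pow_succ, Module.End.mul_apply, hfz, map_smul, ih, smul_smul, pow_succ, mul_comm]
      have hzr : z ^ r = 1 := by
        have h := hpow r v
        rw [hfr, Module.End.one_apply] at h
        have hv0 : v ≠ 0 := fun h0 => hv (by rw [h0, map_zero])
        exact smul_left_injective F hv0 (show z ^ r • v = (1 : F) • v by rw [← h, one_smul])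
      obtain ⟨m, rfl⟩ := hrodd
      rw [pow_succ, pow_mul, pow_two, hzz, one_pow, one_mul] at hzr
      exact hf1 (LinearMap.ext fun y => by rw [hfz, hzr, one_smul, Module.End.one_apply])
    obtain ⟨g, hg, hgN⟩ := H x hx ⟨1, by rw [hxr, Units.val_one, one_smul]⟩ hns
    have hgr : (g⁻¹ * x * g) ^ r = 1 := by
      rw [show g⁻¹ * x * g = g⁻¹ * x * (g⁻¹)⁻¹ by rw [inv_inv], conj_pow, hxr, mul_one, mul_inv_cancel]
    have hcomm := hS.commute_of_mem hK h2 hgN hrodd hgr
    let e : (ι → F) ≃ₗ[F] (ι → F) :=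
      LinearMap.GeneralLinearGroup.generalLinearEquiv F _ (Matrix.GeneralLinearGroup.toLin g⁻¹)
    have he : ∀ y, e y = ((g⁻¹ : GL ι F) : Matrix ι ι F) *ᵥ y := fun y => rfl
    refine ⟨e, fun y => by rw [he]; exact mem_isometryGroup.1 (inv_mem (omegaGL_le hg)) y, fun y => ?_⟩
    have hconj : ∀ y, e.conj f y = ((g⁻¹ * x * g : GL ι F) : Matrix ι ι F) *ᵥ y := fun y => by
      have hs : e.symm y = (g : Matrix ι ι F) *ᵥ y := by
        rw [LinearEquiv.symm_apply_eq, he, inv_mulVec_cancel]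
      rw [LinearEquiv.conj_apply_apply, hs, he, ← hlin, Matrix.toLin'_apply, Matrix.mulVec_mulVec,
        Matrix.mulVec_mulVec, ← Units.val_mul, ← Units.val_mul, mul_assoc]
    rw [hconj, hconj, Matrix.toLin'_apply, Matrix.toLin'_apply, Matrix.mulVec_mulVec, hcomm, Matrix.mulVec_mulVec]
  by_cases hr0 : (r : F) = 0
  · haveI : CharP F r := (CharP.charP_iff_prime_eq_zero hrp).2 hr0
    obtain ⟨f, hf, hfr, hskew, hrank⟩ := exists_root_element (hQ := hQ) (p := r) (by omega)
    obtain ⟨e, he, hcomm⟩ := key f hf hfr fun h => by rw [h, sub_self, LinearMap.range_zero, finrank_bot] at hrank; omega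
    refine no_commute_rank_two h2 hS.nonsq (nondeg_qform hQ) hS.str (N := e.conj f - 1) (fun y => ?_)
      (fun y => by simp only [LinearMap.sub_apply, Module.End.one_apply, hcomm, map_sub]) ?_
    · have hep : ∀ a b, pol (qform hQ) (e a) (e b) = pol (qform hQ) a b := fun a b => by
        simp only [QuadraticMap.polar, ← map_add, he]
      have h := hskew (e.symm y)
      rw [← hep, map_sub, e.apply_symm_apply] at h
      simpa [LinearEquiv.conj_apply_apply] using h
    · have hrange : LinearMap.range (e.conj f - 1) = (LinearMap.range (f - 1)).map (e : (ι → F) →ₗ[F] (ι → F)) := by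
        ext y
        constructor
        · rintro ⟨a, rfl⟩
          exact ⟨_, ⟨e.symm a, rfl⟩, by simp [LinearEquiv.conj_apply_apply]⟩
        · rintro ⟨_, ⟨a, rfl⟩, rfl⟩
          exact ⟨e a, by simp [LinearEquiv.conj_apply_apply]⟩
      rw [hrange, LinearEquiv.finrank_map_eq]
      exact hrank
  have hdvd := hS.dvd_card_str hK h2 (by omega) hrp hr2 hΩ
  have hev : Even (finrank F (ι → F)) := by rwa [finrank_fintype_fun_eq_card]
  obtain ⟨f₀, hs₀, hne₀⟩ := exists_setting_of_dvd h2 hS.nonsq (nondeg_qform hQ) hr2 hr0 hev hdvd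
  obtain ⟨f, hs, hfd⟩ := Classical.Semisimple.QuadIsometry.exists_elem (nondeg_qform hQ) hr2 hr0
    (feasible_one hs₀ hne₀)
  rw [mul_one] at hfd
  have hpd : 0 < pieceDim F r := hs.pieceDim_pos
  have fail : (Odd (ordq F r) ∨ ∃ j, ordq F r = j + j ∧ Odd j) → False := by
    intro hcase
    obtain ⟨e, he, hcomm⟩ := key f hs.isoQ hs.pow fun h => by
      rw [moved, h, one_smul, sub_self, LinearMap.range_zero, finrank_bot] at hfd
      omega
    have hs' : Setting (qform hQ) (e.conj f) r :=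
      { nondeg_top := nondeg_qform hQ
        isoQ := fun y => by
          rw [LinearEquiv.conj_apply_apply, he, hs.isoQ, ← he, e.apply_symm_apply]
        pow := by
          have h := congrArg (e.conjAlgEquiv F) hs.pow
          rw [map_pow, map_one] at h
          exact h
        odd := hr2
        ne := hr0 }
    refine no_commute_piece h2 hS.nonsq hs' hS.str (LinearMap.ext hcomm) ?_ hcase
    have hrange : moved (e.conj f) = (moved f).map (e : (ι → F) →ₗ[F] (ι → F)) := by
      ext y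
      constructor
      · rintro ⟨a, rfl⟩
        exact ⟨_, ⟨e.symm a, rfl⟩, by simp [LinearEquiv.conj_apply_apply]⟩
      · rintro ⟨_, ⟨a, rfl⟩, rfl⟩
        exact ⟨e a, by simp [LinearEquiv.conj_apply_apply]⟩
    rw [hrange, LinearEquiv.finrank_map_eq]
    exact hfd
  rcases Nat.even_or_odd (ordq F r) with ⟨j, hj⟩ | ho
  · rcases Nat.even_or_odd j with hje | hjo
    · exact not_dvd_card_str h2 hS.nonsq hr2 hr0 hj hje _ (qform hQ) (nondeg_qform hQ) rfl hev hdvd
    · exact fail (Or.inr ⟨j, hj, hjo⟩)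
  · exact fail (Or.inl ho)

end CfsgLib.C3Derange
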