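import Cfsg.Agent.Classical.Semisimple.QuadType
import Mathlib.Algebra.QuadraticAlgebra.Basic

/-!
Self-adjoint maps with non-square scalar square on a quadratic space over a finite field of odd order:
they exist in every even dimension, also next to a given map with square `±1`, and are all conjugate
under the isometry group.
-/

set_option autoImplicit false
set_option linter.style.haveILetI false
set_option linter.unusedSectionVars false

namespace CfsgLib.C3Derange

open Module CfsgLib.Classical.Semisimple.QuadType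

universe u v

variable {F : Type u} [Field F]
variable {V : Type v} [AddCommGroup V] [Module F V]

local notation "pol" => QuadraticMap.polar

/-- A self-adjoint map with square the scalar `δ`. -/
structure IsStr (Q : QuadraticForm F V) (δ : F) (J : Module.End F V) : Prop where
  sq : ∀ y, J (J y) = δ • y
  adj : ∀ a b, pol Q (J a) b = pol Q a (J b)

theorem isSquare_mul_nonsquare_false {δ x : F} (hδ : ¬ IsSquare δ) (hx : x ≠ 0) : ¬ IsSquare (δ * (x * x)) := by
  rintro ⟨s, hs⟩
  exact hδ ⟨s / x, by field_simp; linear_combination hs⟩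

theorem even_finrank_stable {δ : F} (hδ : ¬ IsSquare δ) {J : Module.End F V} (hsq : ∀ y, J (J y) = δ • y)
    {U : Submodule F V} (hU : ∀ a ∈ U, J a ∈ U) : Even (finrank F U) := by
  have hδ0 : δ ≠ 0 := fun h => hδ (h ▸ ⟨0, by simp⟩)
  rcases Nat.even_or_odd (finrank F U) with h | ⟨j, hj⟩
  · exact h
  exfalso
  set g : Module.End F U := J.restrict hU with hg
  have h1 : g * g = δ • 1 := LinearMap.ext fun a => Subtype.ext (hsq a)
  have h2 := congrArg LinearMap.det h1
  rw [map_mul, LinearMap.det_smul, map_one, mul_one, hj, pow_succ] at h2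
  exact hδ ⟨LinearMap.det g / δ ^ j, by field_simp; linear_combination -h2⟩

theorem pol_self (Q : QuadraticForm F V) (a : V) : pol Q a a = 2 * Q a := by
  rw [QuadraticMap.polar_self]; simp

/-- A non-degenerate space has an anisotropic vector. -/
theorem exists_q_ne_zero {Q : QuadraticForm F V} (hQ : NondegIn Q ⊤) (hne : 0 < finrank F V) :
    ∃ a, Q a ≠ 0 := by
  by_contra! h
  obtain ⟨a, ha⟩ : ∃ a : V, a ≠ 0 := by
    haveI : Nontrivial V := Module.nontrivial_of_finrank_pos hne
    exact exists_ne 0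
  exact ha (hQ a trivial fun b _ => by simp [QuadraticMap.polar, h])

theorem nondegIn_comp' {Q : QuadraticForm F V} {W : Submodule F V} (hW : NondegIn Q W) :
    NondegIn (Q.comp W.subtype) ⊤ := fun x _ h => Subtype.ext (hW x x.2 fun y hy => h ⟨y, hy⟩ trivial)

theorem polar_comp' (Q : QuadraticForm F V) (W : Submodule F V) (a b : W) :
    pol (Q.comp W.subtype) a b = pol Q (a : V) (b : V) := rfl

/-- Glue structures on a non-degenerate subspace and on its perpendicular space. -/
theorem exists_glue [FiniteDimensional F V] {Q : QuadraticForm F V} {W : Submodule F V} (hW : NondegIn Q W)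
    (A : Module.End F W) (B : Module.End F (orth Q W)) :
    ∃ T : Module.End F V, (∀ a : W, T a = A a) ∧ (∀ b : orth Q W, T b = B b) := by
  refine ⟨LinearMap.ofIsCompl (isCompl_orth hW) (W.subtype ∘ₗ A) ((orth Q W).subtype ∘ₗ B), fun a => ?_,
    fun b => ?_⟩
  · rw [LinearMap.ofIsCompl_apply_left]; rfl
  · rw [LinearMap.ofIsCompl_apply_right]; rfl

theorem decomp [FiniteDimensional F V] {Q : QuadraticForm F V} {W : Submodule F V} (hW : NondegIn Q W) (y : V) :
    ∃ a : W, ∃ b : orth Q W, (a : V) + (b : V) = y := by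
  obtain ⟨a, ha, b, hb, h⟩ := Submodule.mem_sup.1
    ((isCompl_orth hW).sup_eq_top ▸ Submodule.mem_top : y ∈ W ⊔ orth Q W)
  exact ⟨⟨a, ha⟩, ⟨b, hb⟩, h⟩

theorem isStr_glue [FiniteDimensional F V] {Q : QuadraticForm F V} {δ : F} {W : Submodule F V}
    (hW : NondegIn Q W) {A : Module.End F W} {B : Module.End F (orth Q W)} (hA : IsStr (Q.comp W.subtype) δ A)
    (hB : IsStr (Q.comp (orth Q W).subtype) δ B) {T : Module.End F V} (hTA : ∀ a : W, T a = A a)
    (hTB : ∀ b : orth Q W, T b = B b) : IsStr Q δ T := by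
  constructor
  · intro y
    obtain ⟨a, b, rfl⟩ := decomp hW y
    rw [map_add, hTA, hTB, map_add, hTA, hTB, hA.sq, hB.sq, smul_add]
    rfl
  · intro y y'
    obtain ⟨a, b, rfl⟩ := decomp hW y
    obtain ⟨a', b', rfl⟩ := decomp hW y'
    have h1 : ∀ (x : W) (z : orth Q W), pol Q (x : V) (z : V) = 0 := fun x z => mem_orth.1 z.2 x x.2
    have h2 : ∀ (x : W) (z : orth Q W), pol Q (z : V) (x : V) = 0 := fun x z => by
      rw [QuadraticMap.polar_comm]; exact h1 x z
    simp only [map_add, hTA, hTB, QuadraticMap.polar_add_left, QuadraticMap.polar_add_right, h1, h2]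
    rw [← polar_comp', ← polar_comp', ← polar_comp', ← polar_comp', hA.adj, hB.adj]

variable [Fintype F]

theorem ringChar_ne_two (h2 : (2 : F) ≠ 0) : ringChar F ≠ 2 := fun h => h2 (by
  have := ringChar.Nat.cast_ringChar (R := F)
  rw [h] at this
  exact_mod_cast this)

theorem exists_conic (h2 : (2 : F) ≠ 0) {k : F} (hk : k ≠ 0) (δ : F) : ∃ s t : F, s ^ 2 + k * t ^ 2 = δ := by
  obtain ⟨s, t, h⟩ := FiniteField.exists_root_sum_quadratic (f := Polynomial.X ^ 2)
    (g := Polynomial.C k * Polynomial.X ^ 2 + Polynomial.C 0 * Polynomial.X + Polynomial.C (-δ))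
    (Polynomial.degree_X_pow 2) (Polynomial.degree_quadratic hk)
    (FiniteField.odd_card_of_char_ne_two (ringChar_ne_two h2))
  simp only [Polynomial.eval_pow, Polynomial.eval_X, Polynomial.eval_add, Polynomial.eval_mul,
    Polynomial.eval_C] at h
  exact ⟨s, t, by linear_combination h⟩

/-- The plane of two orthogonal anisotropic vectors. -/
theorem plane_nondeg {Q : QuadraticForm F V} (h2 : (2 : F) ≠ 0) {v w : V} (hv : Q v ≠ 0) (hw : Q w ≠ 0)
    (hvw : pol Q v w = 0) :
    NondegIn Q (Submodule.span F {v, w}) ∧ finrank F (Submodule.span F ({v, w} : Set V)) = 2 := by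
  classical
  have hwv : pol Q w v = 0 := by rw [QuadraticMap.polar_comm]; exact hvw
  have key : ∀ a b : F, pol Q (a • v + b • w) v = a * (2 * Q v) ∧ pol Q (a • v + b • w) w = b * (2 * Q w) := by
    intro a b
    constructor <;>
      simp only [QuadraticMap.polar_add_left, QuadraticMap.polar_smul_left, smul_eq_mul, hvw, hwv, pol_self,
        mul_zero, add_zero, zero_add]
  have hzero : ∀ a b : F, pol Q (a • v + b • w) v = 0 → pol Q (a • v + b • w) w = 0 → a = 0 ∧ b = 0 :=
    fun a b h h' => ⟨by rw [(key a b).1] at h; exact (mul_eq_zero.1 h).resolve_right (mul_ne_zero h2 hv),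
      by rw [(key a b).2] at h'; exact (mul_eq_zero.1 h').resolve_right (mul_ne_zero h2 hw)⟩
  refine ⟨fun x hx h => ?_, ?_⟩
  · obtain ⟨a, b, rfl⟩ := Submodule.mem_span_pair.1 hx
    obtain ⟨rfl, rfl⟩ := hzero a b (h v (Submodule.subset_span (by simp))) (h w (Submodule.subset_span (by simp)))
    simp
  · have hli : LinearIndependent F ![v, w] := LinearIndependent.pair_iff.2 fun a b h =>
      hzero a b (by rw [h]; simp [QuadraticMap.polar]) (by rw [h]; simp [QuadraticMap.polar])
    have := finrank_span_eq_card hli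
    rw [Matrix.range_cons, Matrix.range_cons, Matrix.range_empty, Set.union_empty, Set.singleton_union] at this
    simpa using this

/-- A structure on a plane; it anticommutes with any rotation by a quarter of it. -/
theorem exists_plane_str {Q : QuadraticForm F V} (h2 : (2 : F) ≠ 0) (δ : F) {v w : V} (hv : Q v ≠ 0)
    (hw : Q w ≠ 0) (hvw : pol Q v w = 0) :
    ∃ A : Module.End F (Submodule.span F ({v, w} : Set V)),
      IsStr (Q.comp (Submodule.span F ({v, w} : Set V)).subtype) δ A ∧
      ∀ X : Module.End F V, X v = w → X w = -v → Q v = Q w →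
        ∀ a b : Submodule.span F ({v, w} : Set V), (b : V) = X (a : V) → X (A a : V) = -(A b : V) := by
  classical
  set W := Submodule.span F ({v, w} : Set V) with hW
  have hwv : pol Q w v = 0 := by rw [QuadraticMap.polar_comm]; exact hvw
  obtain ⟨s, t, hst⟩ := exists_conic h2 (mul_ne_zero hv hw) δ
  let Jv : V := s • v + (t * Q v) • w
  let Jw : V := (t * Q w) • v - s • w
  have hJv : Jv ∈ W := Submodule.mem_span_pair.2 ⟨s, t * Q v, rfl⟩
  have hJw : Jw ∈ W := Submodule.mem_span_pair.2 ⟨t * Q w, -s, by simp only [Jw]; module⟩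
  let T : V →ₗ[F] V :=
    (((2 * Q v)⁻¹ • QuadraticMap.polarBilin Q v).smulRight Jv) +
      (((2 * Q w)⁻¹ • QuadraticMap.polarBilin Q w).smulRight Jw)
  have hT : ∀ a b : F, T (a • v + b • w) = a • Jv + b • Jw := by
    intro a b
    simp only [T, LinearMap.add_apply, LinearMap.smulRight_apply, LinearMap.smul_apply,
      QuadraticMap.polarBilin_apply_apply, QuadraticMap.polar_add_right, QuadraticMap.polar_smul_right,
      smul_eq_mul, hvw, hwv, pol_self, mul_zero, add_zero, zero_add]
    congr 2 <;> field_simp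
  have hTmem : ∀ a ∈ W, T a ∈ W := fun a ha => by
    obtain ⟨x, y, rfl⟩ := Submodule.mem_span_pair.1 ha
    rw [hT]; exact W.add_mem (W.smul_mem _ hJv) (W.smul_mem _ hJw)
  refine ⟨T.restrict hTmem, ⟨fun a => ?_, fun a b => ?_⟩, fun X hXv hXw hq a b hb => ?_⟩
  · obtain ⟨x, y, h⟩ := Submodule.mem_span_pair.1 a.2
    refine Subtype.ext ?_
    show T (T (a : V)) = δ • (a : V)
    rw [← h, hT, show x • Jv + y • Jw = (x * s + y * (t * Q w)) • v + (x * (t * Q v) - y * s) • w by
      simp only [Jv, Jw]; module, hT, ← hst]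
    simp only [Jv, Jw]
    module
  · obtain ⟨x, y, h⟩ := Submodule.mem_span_pair.1 a.2
    obtain ⟨x', y', h'⟩ := Submodule.mem_span_pair.1 b.2
    rw [polar_comp', polar_comp']
    show pol Q (T (a : V)) (b : V) = pol Q (a : V) (T (b : V))
    rw [← h, ← h', hT, hT]
    simp only [Jv, Jw, QuadraticMap.polar_add_left, QuadraticMap.polar_add_right, QuadraticMap.polar_sub_left,
      QuadraticMap.polar_sub_right, QuadraticMap.polar_smul_left, QuadraticMap.polar_smul_right, smul_eq_mul,
      hvw, hwv, pol_self]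
    ring
  · obtain ⟨x, y, h⟩ := Submodule.mem_span_pair.1 a.2
    show X (T (a : V)) = -(T (b : V))
    have hb' : (b : V) = (-y) • v + x • w := by rw [hb, ← h, map_add, map_smul, map_smul, hXv, hXw]; module
    rw [hb', hT, ← h, hT]
    simp only [Jv, Jw, map_add, map_sub, map_smul, hXv, hXw, hq]
    module

/-- Every even dimensional space carries a structure. -/
theorem exists_str (h2 : (2 : F) ≠ 0) (δ : F) : ∀ (n : ℕ) {V : Type v} [AddCommGroup V] [Module F V]
    [FiniteDimensional F V] (Q : QuadraticForm F V), NondegIn Q ⊤ → finrank F V = 2 * n →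
    ∃ J, IsStr Q δ J := by
  intro n
  induction n with
  | zero =>
    intro V _ _ _ Q _ hd
    haveI : Subsingleton V := Module.finrank_zero_iff.1 (by simpa using hd)
    exact ⟨0, fun y => Subsingleton.elim _ _, fun a b => by
      rw [Subsingleton.elim a 0, Subsingleton.elim b 0]; simp⟩
  | succ n ih =>
    intro V _ _ _ Q hQ hd
    obtain ⟨v, hv⟩ := exists_q_ne_zero hQ (by omega)
    have hspan : NondegIn Q (F ∙ v) := fun x hx h => by
      obtain ⟨a, rfl⟩ := Submodule.mem_span_singleton.1 hx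
      have := h v (Submodule.mem_span_singleton_self v)
      rw [QuadraticMap.polar_smul_left, pol_self, smul_eq_mul] at this
      rw [(mul_eq_zero.1 this).resolve_right (mul_ne_zero h2 hv), zero_smul]
    have hv0 : v ≠ 0 := fun h => hv (by rw [h, map_zero])
    have hsplit := split hQ hspan le_top
    rw [top_inf_eq, finrank_top, finrank_span_singleton hv0] at hsplit
    have hsplitd := hsplit.2.2
    obtain ⟨w, hw'⟩ := exists_q_ne_zero (nondegIn_comp' hsplit.2.1) (by omega)
    have hw : Q (w : V) ≠ 0 := hw'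
    have hvw : pol Q v (w : V) = 0 := mem_orth.1 w.2 v (Submodule.mem_span_singleton_self v)
    obtain ⟨hW, hWd⟩ := plane_nondeg h2 hv hw hvw
    obtain ⟨A, hA, -⟩ := exists_plane_str h2 δ hv hw hvw
    have hs := split hQ hW le_top
    rw [top_inf_eq, finrank_top, hWd] at hs
    have hsd := hs.2.2
    obtain ⟨B, hB⟩ := ih (Q.comp (orth Q (Submodule.span F {v, (w : V)})).subtype) (nondegIn_comp' hs.2.1) (by omega)
    obtain ⟨T, hTA, hTB⟩ := exists_glue hW A B
    exact ⟨T, isStr_glue hW hA hB hTA hTB⟩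

/-- A structure anticommuting with an isometry of square `-1` and stabilising a plane on which that
isometry acts. -/
theorem exists_str_anti (h2 : (2 : F) ≠ 0) (δ : F) : ∀ (n : ℕ) {V : Type v} [AddCommGroup V] [Module F V]
    [FiniteDimensional F V] (Q : QuadraticForm F V) (X : Module.End F V), NondegIn Q ⊤ → finrank F V ≤ n →
    (∀ y, Q (X y) = Q y) → (∀ y, X (X y) = -y) →
    ∃ J, IsStr Q δ J ∧ (∀ y, X (J y) = -J (X y)) ∧ ∀ _ : 0 < finrank F V, ∃ v, Q v ≠ 0 ∧
      ∀ y ∈ Submodule.span F {v, X v}, J y ∈ Submodule.span F {v, X v} := by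
  intro n
  induction n with
  | zero =>
    intro V _ _ _ Q X _ hd _ _
    haveI : Subsingleton V := (Module.finrank_zero_iff (R := F)).1 (Nat.le_zero.1 hd)
    exact ⟨0, ⟨fun y => Subsingleton.elim _ _, fun a b => by
      rw [Subsingleton.elim a 0, Subsingleton.elim b 0]; simp⟩, fun y => Subsingleton.elim _ _,
      fun h => absurd h (Nat.not_lt.2 hd)⟩
  | succ n ih =>
    intro V _ _ _ Q X hQ hd hX hXX
    rcases Nat.eq_zero_or_pos (finrank F V) with h0 | hpos
    · exact ih Q X hQ (by omega) hX hXX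
    obtain ⟨v, hv⟩ := exists_q_ne_zero hQ hpos
    have hXp : ∀ a b, pol Q (X a) (X b) = pol Q a b := fun a b => by
      simp only [QuadraticMap.polar, ← map_add, hX]
    have hvw : pol Q v (X v) = 0 := by
      have h := hXp v (X v)
      rw [hXX, QuadraticMap.polar_neg_right, QuadraticMap.polar_comm] at h
      exact (mul_eq_zero.1 (show (2 : F) * pol Q v (X v) = 0 by linear_combination -h)).resolve_left h2
    have hw : Q (X v) ≠ 0 := by rwa [hX]
    obtain ⟨hW, hWd⟩ := plane_nondeg h2 hv hw hvw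
    set W := Submodule.span F ({v, X v} : Set V) with hWdef
    obtain ⟨A, hA, hAX⟩ := exists_plane_str h2 δ hv hw hvw
    have hs := split hQ hW le_top
    rw [top_inf_eq, finrank_top, hWd] at hs
    have hsd := hs.2.2
    have hXW : ∀ a ∈ W, X a ∈ W := fun a ha => by
      obtain ⟨x, y, rfl⟩ := Submodule.mem_span_pair.1 ha
      exact Submodule.mem_span_pair.2 ⟨-y, x, by simp [map_add, map_smul, hXX]; abel⟩
    have hXO : ∀ b ∈ orth Q W, X b ∈ orth Q W := fun b hb => mem_orth.2 fun a ha => by
      have h := hXp (X a) b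
      rw [hXX, QuadraticMap.polar_neg_left, mem_orth.1 hb _ (hXW a ha), neg_eq_zero] at h
      exact h
    obtain ⟨B, hB, hBX, -⟩ := ih (Q.comp (orth Q W).subtype) (X.restrict hXO) (nondegIn_comp' hs.2.1) (by omega)
      (fun y => hX y) (fun y => Subtype.ext (hXX y))
    obtain ⟨T, hTA, hTB⟩ := exists_glue hW A B
    refine ⟨T, isStr_glue hW hA hB hTA hTB, fun y => ?_, fun _ => ⟨v, hv, fun a ha => ?_⟩⟩
    · obtain ⟨a, b, rfl⟩ := decomp hW y
      have h1 := hAX X rfl (hXX v) (hX v).symm a ⟨X (a : V), hXW a a.2⟩ rfl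
      have h3 := congrArg Subtype.val (hBX b)
      simp only [LinearMap.restrict_apply, Submodule.coe_neg] at h3
      rw [map_add, hTA, hTB, map_add X, h1, h3, map_add X, map_add,
        show T (X (a : V)) = _ from hTA ⟨X a, hXW a a.2⟩,
        show T (X (b : V)) = _ from hTB ⟨X b, hXO b b.2⟩]
      abel
    · rw [show T a = _ from hTA ⟨a, ha⟩]
      exact (A _).2

/-- A structure commuting with an involution in `SO`. -/
theorem exists_str_comm [FiniteDimensional F V] (h2 : (2 : F) ≠ 0) (δ : F) (Q : QuadraticForm F V)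
    (hQ : NondegIn Q ⊤) {X : Module.End F V} (hX : ∀ y, Q (X y) = Q y) (hXX : ∀ y, X (X y) = y)
    (he : Even (finrank F (LinearMap.ker (X + 1)))) (hev : Even (finrank F V)) :
    ∃ J, IsStr Q δ J ∧ ∀ y, X (J y) = J (X y) := by
  set W := LinearMap.ker (X + 1) with hWdef
  have hW : ∀ y ∈ W, X y = -y := fun y hy => eq_neg_of_add_eq_zero_left (by simpa [hWdef] using hy)
  have hXp : ∀ a b, pol Q (X a) (X b) = pol Q a b := fun a b => by
    simp only [QuadraticMap.polar, ← map_add, hX]
  have hfix : ∀ a, X a = a → ∀ b ∈ W, pol Q b a = 0 := fun a ha b hb => by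
    have h := hXp b a
    rw [ha, hW b hb, QuadraticMap.polar_neg_left] at h
    exact (mul_eq_zero.1 (show (2 : F) * pol Q b a = 0 by linear_combination -h)).resolve_left h2
  have hWn : NondegIn Q W := fun x hx h => by
    refine hQ x trivial fun y _ => ?_
    have hy : y = (2 : F)⁻¹ • (y + X y) + (2 : F)⁻¹ • (y - X y) := by
      match_scalars <;> field_simp <;> ring
    have hp1 : X ((2 : F)⁻¹ • (y + X y)) = (2 : F)⁻¹ • (y + X y) := by
      rw [map_smul, map_add, hXX, add_comm]
    have hm1 : (2 : F)⁻¹ • (y - X y) ∈ W := W.smul_mem _ (by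
      rw [hWdef, LinearMap.mem_ker, LinearMap.add_apply, Module.End.one_apply, map_sub, hXX]
      abel)
    rw [hy, QuadraticMap.polar_add_right, hfix _ hp1 x hx, h _ hm1, add_zero]
  have hO : ∀ b ∈ orth Q W, X b = b := fun b hb => by
    have hd : b - X b ∈ W := by
      rw [hWdef, LinearMap.mem_ker, LinearMap.add_apply, Module.End.one_apply, map_sub, hXX]
      abel
    have h0 : b - X b = 0 := hWn _ hd fun w hw => by
      have h := hXp b w
      rw [hW w hw, QuadraticMap.polar_neg_right] at h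
      have h' : pol Q b w = 0 := by rw [QuadraticMap.polar_comm]; exact mem_orth.1 hb w hw
      rw [QuadraticMap.polar_sub_left, h', show pol Q (X b) w = 0 by linear_combination -h + h' * (-1)]
      ring
    exact (sub_eq_zero.1 h0).symm
  have hs := split hQ hWn le_top
  rw [top_inf_eq, finrank_top] at hs
  have hsd := hs.2.2
  obtain ⟨a, ha⟩ := he
  have hb : Even (finrank F (orth Q W)) := (Nat.even_add.1 (hs.2.2 ▸ hev)).1 ⟨a, ha⟩
  obtain ⟨b, hb⟩ := hb
  obtain ⟨A, hA⟩ := exists_str h2 δ a (Q.comp W.subtype) (nondegIn_comp' hWn) (by omega)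
  obtain ⟨B, hB⟩ := exists_str h2 δ b (Q.comp (orth Q W).subtype) (nondegIn_comp' hs.2.1) (by omega)
  obtain ⟨T, hTA, hTB⟩ := exists_glue hWn A B
  refine ⟨T, isStr_glue hWn hA hB hTA hTB, fun y => ?_⟩
  obtain ⟨c, e, rfl⟩ := decomp hWn y
  rw [map_add, hTA, hTB, map_add X, map_add X, hW c c.2, hW _ (A c).2, hO e e.2, hO _ (B e).2, map_add, map_neg,
    hTA, hTB]

/-! Conjugacy of structures. -/

variable {δ : F}

/-- The value of the form with values in the quadratic extension. -/
def hVal (Q : QuadraticForm F V) (δ : F) (J : Module.End F V) (y : V) : QuadraticAlgebra F δ 0 :=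
  ⟨Q y, pol Q y (J y) / (2 * δ)⟩

theorem qJ {Q : QuadraticForm F V} {J : Module.End F V} (h2 : (2 : F) ≠ 0) (hJ : IsStr Q δ J) (y : V) :
    Q (J y) = δ * Q y := by
  have h := hJ.adj y (J y)
  rw [pol_self, hJ.sq, QuadraticMap.polar_smul_right, pol_self, smul_eq_mul] at h
  exact mul_left_cancel₀ h2 (by linear_combination h)

theorem q_comb {Q : QuadraticForm F V} {J : Module.End F V} (h2 : (2 : F) ≠ 0) (hJ : IsStr Q δ J) (y : V)
    (a b : F) : Q (a • y + b • J y) = (a * a + b * b * δ) * Q y + a * b * pol Q y (J y) := by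
  rw [QuadraticMap.map_add (f := ⇑Q), QuadraticMap.map_smul, QuadraticMap.map_smul, qJ h2 hJ,
    QuadraticMap.polar_smul_left, QuadraticMap.polar_smul_right]
  simp only [smul_eq_mul]
  ring

theorem hVal_comb {Q : QuadraticForm F V} {J : Module.End F V} (h2 : (2 : F) ≠ 0) (hδ : δ ≠ 0)
    (hJ : IsStr Q δ J) (y : V) (z : QuadraticAlgebra F δ 0) :
    hVal Q δ J (z.re • y + z.im • J y) = hVal Q δ J y * (z * z) := by
  have hyJ : pol Q (J y) y = pol Q y (J y) := QuadraticMap.polar_comm _ _ _
  ext
  · simp only [hVal, QuadraticAlgebra.re_mul, QuadraticAlgebra.im_mul, q_comb h2 hJ]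
    field_simp
    ring
  · simp only [hVal, QuadraticAlgebra.re_mul, QuadraticAlgebra.im_mul, map_add, map_smul, hJ.sq,
      QuadraticMap.polar_add_left, QuadraticMap.polar_add_right, QuadraticMap.polar_smul_left,
      QuadraticMap.polar_smul_right, smul_eq_mul, pol_self, qJ h2 hJ, hyJ]
    field_simp
    ring

theorem hVal_add {Q : QuadraticForm F V} {J : Module.End F V} (hJ : IsStr Q δ J) {y y' : V}
    (h : pol Q y y' = 0) (h' : pol Q y (J y') = 0) :
    hVal Q δ J (y + y') = hVal Q δ J y + hVal Q δ J y' := by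
  have h'' : pol Q y' (J y) = 0 := by rw [← hJ.adj, QuadraticMap.polar_comm, h']
  ext
  · simp [hVal, QuadraticMap.map_add (f := ⇑Q), h]
  · simp [hVal, QuadraticMap.polar_add_left, QuadraticMap.polar_add_right, h', h'', add_div]

theorem gram_ne_zero {Q : QuadraticForm F V} {J : Module.End F V} (h2 : (2 : F) ≠ 0) (hδ : ¬ IsSquare δ)
    {y : V} (hy : hVal Q δ J y ≠ 0) : 4 * δ * Q y * Q y - pol Q y (J y) * pol Q y (J y) ≠ 0 := by
  intro h
  by_cases hq : Q y = 0
  · rw [hq] at h
    refine hy (QuadraticAlgebra.ext ?_ ?_)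
    · simpa [hVal] using hq
    · have : pol Q y (J y) = 0 := mul_self_eq_zero.1 (by linear_combination -h)
      simp [hVal, this]
  · exact hδ ⟨pol Q y (J y) / (2 * Q y), by field_simp; linear_combination h⟩

theorem line_nondeg {Q : QuadraticForm F V} {J : Module.End F V} (h2 : (2 : F) ≠ 0) (hδ : ¬ IsSquare δ)
    (hJ : IsStr Q δ J) {y : V} (hy : hVal Q δ J y ≠ 0) :
    NondegIn Q (Submodule.span F {y, J y}) ∧ finrank F (Submodule.span F ({y, J y} : Set V)) = 2 := by
  classical
  have hyJ : pol Q (J y) y = pol Q y (J y) := QuadraticMap.polar_comm _ _ _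
  have hJJ : pol Q (J y) (J y) = 2 * (δ * Q y) := by rw [pol_self, qJ h2 hJ]
  have hdet := gram_ne_zero h2 hδ hy
  have hzero : ∀ a b : F, pol Q (a • y + b • J y) y = 0 → pol Q (a • y + b • J y) (J y) = 0 →
      a = 0 ∧ b = 0 := by
    intro a b h h'
    simp only [QuadraticMap.polar_add_left, QuadraticMap.polar_smul_left, smul_eq_mul, pol_self, hyJ, hJJ] at h h'
    exact ⟨(mul_eq_zero.1 (show a * (4 * δ * Q y * Q y - pol Q y (J y) * pol Q y (J y)) = 0 by
        linear_combination 2 * δ * Q y * h - pol Q y (J y) * h')).resolve_right hdet,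
      (mul_eq_zero.1 (show b * (4 * δ * Q y * Q y - pol Q y (J y) * pol Q y (J y)) = 0 by
        linear_combination 2 * Q y * h' - pol Q y (J y) * h)).resolve_right hdet⟩
  refine ⟨fun x hx h => ?_, ?_⟩
  · obtain ⟨a, b, rfl⟩ := Submodule.mem_span_pair.1 hx
    obtain ⟨rfl, rfl⟩ := hzero a b (h y (Submodule.subset_span (by simp))) (h _ (Submodule.subset_span (by simp)))
    simp
  · have hli : LinearIndependent F ![y, J y] := LinearIndependent.pair_iff.2 fun a b h =>
      hzero a b (by rw [h]; simp [QuadraticMap.polar]) (by rw [h]; simp [QuadraticMap.polar])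
    have := finrank_span_eq_card hli
    rw [Matrix.range_cons, Matrix.range_cons, Matrix.range_empty, Set.union_empty, Set.singleton_union] at this
    simpa using this

/-- Vectors with matching values in two structures. -/
theorem exists_match [FiniteDimensional F V] (h2 : (2 : F) ≠ 0) (hδ : ¬ IsSquare δ) {Q : QuadraticForm F V}
    (hQ : NondegIn Q ⊤) {J J' : Module.End F V} (hJ : IsStr Q δ J) (hJ' : IsStr Q δ J')
    (hpos : 0 < finrank F V) :
    ∃ y y', hVal Q δ J y ≠ 0 ∧ hVal Q δ J y = hVal Q δ J' y' := by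
  classical
  have hδ0 : δ ≠ 0 := fun h => hδ (h ▸ ⟨0, by simp⟩)
  haveI : Fact (∀ r : F, r ^ 2 ≠ δ + 0 * r) := ⟨fun r h => hδ ⟨r, by linear_combination -h⟩⟩
  letI : Fintype (QuadraticAlgebra F δ 0) := Fintype.ofEquiv _ (QuadraticAlgebra.equivProd δ 0).symm
  have hcard : Fintype.card (QuadraticAlgebra F δ 0) = Fintype.card F ^ 2 := by
    rw [Fintype.card_congr (QuadraticAlgebra.equivProd δ 0), Fintype.card_prod, sq]
  have hne : ∀ {J : Module.End F V}, IsStr Q δ J → ∃ y, hVal Q δ J y ≠ 0 := fun {J} _ => by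
    obtain ⟨y, hy⟩ := exists_q_ne_zero hQ hpos
    exact ⟨y, fun h => hy (congrArg QuadraticAlgebra.re h)⟩
  have hch : ringChar F ≠ 2 := ringChar_ne_two h2
  have hodd : Fintype.card F % 2 = 1 := FiniteField.odd_card_of_char_ne_two hch
  by_cases hbig : 2 < finrank F V
  · -- value one in each structure
    have hone : ∀ {J : Module.End F V}, IsStr Q δ J → ∃ y, hVal Q δ J y = 1 := by
      intro J hJ
      obtain ⟨y, hy⟩ := hne hJ
      obtain ⟨hP, hPd⟩ := line_nondeg h2 hδ hJ hy
      have hs := split hQ hP le_top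
      rw [top_inf_eq, finrank_top, hPd] at hs
      have hsd := hs.2.2
      obtain ⟨z, hz0⟩ := exists_q_ne_zero (nondegIn_comp' hs.2.1) (by omega)
      have hz : Q (z : V) ≠ 0 := hz0
      have hz' : hVal Q δ J (z : V) ≠ 0 := fun h => hz (congrArg QuadraticAlgebra.re h)
      obtain ⟨A, B, hAB⟩ := FiniteField.exists_root_sum_quadratic
        (f := Polynomial.C (hVal Q δ J y) * Polynomial.X ^ 2 + Polynomial.C 0 * Polynomial.X + Polynomial.C 0)
        (g := Polynomial.C (hVal Q δ J (z : V)) * Polynomial.X ^ 2 + Polynomial.C 0 * Polynomial.X + Polynomial.C (-1))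
        (Polynomial.degree_quadratic hy) (Polynomial.degree_quadratic hz')
        (by rw [hcard, Nat.pow_mod, hodd])
      simp only [Polynomial.eval_add, Polynomial.eval_mul, Polynomial.eval_pow, Polynomial.eval_X,
        Polynomial.eval_C, zero_mul, add_zero] at hAB
      refine ⟨(A.re • y + A.im • J y) + (B.re • (z : V) + B.im • J (z : V)), ?_⟩
      have hzy : pol Q y (z : V) = 0 := mem_orth.1 z.2 y (Submodule.subset_span (by simp))
      have hzJy : pol Q (J y) (z : V) = 0 := mem_orth.1 z.2 _ (Submodule.subset_span (by simp))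
      have hyJz : pol Q y (J (z : V)) = 0 := by rw [← hJ.adj]; exact hzJy
      have hJJ : pol Q (J y) (J (z : V)) = 0 := by
        rw [hJ.adj, hJ.sq, QuadraticMap.polar_smul_right, hzy, smul_zero]
      rw [hVal_add hJ, hVal_comb h2 hδ0 hJ, hVal_comb h2 hδ0 hJ]
      · linear_combination hAB
      · simp [QuadraticMap.polar_add_left, QuadraticMap.polar_add_right, QuadraticMap.polar_smul_left,
          QuadraticMap.polar_smul_right, hzy, hzJy, hyJz, hJJ]
      · simp [map_add, map_smul, hJ.sq, QuadraticMap.polar_add_left, QuadraticMap.polar_add_right,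
          QuadraticMap.polar_smul_left, QuadraticMap.polar_smul_right, hzy, hzJy, hyJz, hJJ]
    obtain ⟨y, hy⟩ := hone hJ
    obtain ⟨y', hy'⟩ := hone hJ'
    exact ⟨y, y', by rw [hy]; exact one_ne_zero, hy.trans hy'.symm⟩
  · -- a plane
    obtain ⟨v, hv⟩ := exists_q_ne_zero hQ hpos
    have hvJ : hVal Q δ J v ≠ 0 := fun h => hv (congrArg QuadraticAlgebra.re h)
    have hvJ' : hVal Q δ J' v ≠ 0 := fun h => hv (congrArg QuadraticAlgebra.re h)
    obtain ⟨hP', hPd'⟩ := line_nondeg h2 hδ hJ' hvJ'
    have htop : Submodule.span F ({v, J' v} : Set V) = ⊤ := Submodule.eq_top_of_finrank_eq (by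
      have := Submodule.finrank_le (Submodule.span F ({v, J' v} : Set V))
      omega)
    obtain ⟨a, b, hab⟩ := Submodule.mem_span_pair.1 (htop ▸ Submodule.mem_top : J v ∈ Submodule.span F ({v, J' v} : Set V))
    set P := pol Q v (J v) with hP
    set P' := pol Q v (J' v) with hP'def
    have e1 : P = 2 * a * Q v + b * P' := by
      rw [hP, ← hab, QuadraticMap.polar_add_right, QuadraticMap.polar_smul_right, QuadraticMap.polar_smul_right,
        pol_self, smul_eq_mul, smul_eq_mul]
      ring
    have e2 : δ * Q v = (a * a + b * b * δ) * Q v + a * b * P' := by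
      rw [← qJ h2 hJ, ← hab, q_comb h2 hJ']
    have hdet : 4 * δ * Q v * Q v - P * P = b * b * (4 * δ * Q v * Q v - P' * P') := by
      rw [e1]; linear_combination 4 * Q v * e2
    have hb : b ≠ 0 := fun hb => by
      refine gram_ne_zero h2 hδ hvJ ?_
      rw [← hP, hdet, hb]; ring
    set r := hVal Q δ J v * (hVal Q δ J' v)⁻¹ with hr
    have hr0 : r ≠ 0 := mul_ne_zero hvJ (inv_ne_zero hvJ')
    have hnorm : ∀ z : QuadraticAlgebra F δ 0, z ^ Fintype.card F = ⟨z.re, -z.im⟩ := by
      intro z
      have hw : (⟨0, 1⟩ : QuadraticAlgebra F δ 0) * ⟨0, 1⟩ = algebraMap F _ δ := by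
        ext <;> simp [QuadraticAlgebra.algebraMap_eq]
      obtain ⟨m, hm⟩ : ∃ m, Fintype.card F = 2 * m + 1 := ⟨Fintype.card F / 2, by omega⟩
      have hpow : (⟨0, 1⟩ : QuadraticAlgebra F δ 0) ^ Fintype.card F = ⟨0, -1⟩ := by
        have h1 : δ ^ (Fintype.card F / 2) = -1 := (FiniteField.pow_dichotomy hch hδ0).resolve_left fun h =>
          hδ ((FiniteField.isSquare_iff hch hδ0).2 h)
        rw [show Fintype.card F / 2 = m by omega] at h1
        rw [hm, pow_succ, pow_mul, sq, hw, ← map_pow, h1, map_neg, map_one, neg_one_mul]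
        ext <;> simp
      have hz : z = algebraMap F _ z.re + algebraMap F _ z.im * ⟨0, 1⟩ := by
        ext <;> simp [QuadraticAlgebra.algebraMap_eq]
      have h := map_add (FiniteField.frobeniusAlgHom F (QuadraticAlgebra F δ 0)) (algebraMap F _ z.re)
        (algebraMap F _ z.im * ⟨0, 1⟩)
      rw [← hz, map_mul, AlgHom.commutes, AlgHom.commutes, FiniteField.frobeniusAlgHom_apply,
        FiniteField.frobeniusAlgHom_apply, hpow] at h
      rw [h]
      ext <;> simp [QuadraticAlgebra.algebraMap_eq]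
    have hN : ∀ z : QuadraticAlgebra F δ 0, z ^ (Fintype.card F + 1) = algebraMap F _ (z.re * z.re - δ * z.im * z.im) := by
      intro z
      rw [pow_succ, hnorm]
      ext <;> simp [QuadraticAlgebra.algebraMap_eq] <;> ring
    have hrN : r ^ (Fintype.card F + 1) = algebraMap F _ (b * b) := by
      rw [hr, mul_pow, inv_pow, ← div_eq_mul_inv, div_eq_iff (pow_ne_zero _ hvJ'), hN, hN, ← map_mul]
      congr 1
      simp only [hVal, ← hP, ← hP'def]
      field_simp
      linear_combination hdet
    have hsq : IsSquare r := by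
      have hch' : ringChar (QuadraticAlgebra F δ 0) ≠ 2 := by
        rw [← Algebra.ringChar_eq F (QuadraticAlgebra F δ 0)]; exact hch
      rw [FiniteField.isSquare_iff hch' hr0, hcard]
      obtain ⟨m, hm⟩ : ∃ m, Fintype.card F = 2 * m + 1 := ⟨Fintype.card F / 2, by omega⟩
      have h1 : (2 * m + 1) ^ 2 / 2 = (2 * m + 1 + 1) * m := by
        rw [show (2 * m + 1) ^ 2 = 2 * ((2 * m + 1 + 1) * m) + 1 by ring]; omega
      rw [hm, h1, pow_mul, ← hm, hrN, ← map_pow, ← sq, ← pow_mul, show 2 * m = Fintype.card F - 1 by omega,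
        FiniteField.pow_card_sub_one_eq_one b hb, map_one]
    obtain ⟨z, hz⟩ := hsq
    refine ⟨v, z.re • v + z.im • J' v, hvJ, ?_⟩
    rw [hVal_comb h2 hδ0 hJ', ← hz, hr, mul_comm (hVal Q δ J v), ← mul_assoc, mul_inv_cancel₀ hvJ', one_mul]

/-- All structures are conjugate under the isometry group. -/
theorem exists_conj (h2 : (2 : F) ≠ 0) (hδ : ¬ IsSquare δ) : ∀ (n : ℕ) {V : Type v} [AddCommGroup V] [Module F V]
    [FiniteDimensional F V] (Q : QuadraticForm F V) (J J' : Module.End F V), NondegIn Q ⊤ → finrank F V ≤ n →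
    IsStr Q δ J → IsStr Q δ J' → ∃ g : V ≃ₗ[F] V, (∀ y, Q (g y) = Q y) ∧ ∀ y, g (J y) = J' (g y) := by
  intro n
  induction n with
  | zero =>
    intro V _ _ _ Q J J' _ hd _ _
    haveI : Subsingleton V := (Module.finrank_zero_iff (R := F)).1 (Nat.le_zero.1 hd)
    exact ⟨LinearEquiv.refl F V, fun _ => rfl, fun y => Subsingleton.elim _ _⟩
  | succ n ih =>
    intro V _ _ _ Q J J' hQ hd hJ hJ'
    rcases Nat.eq_zero_or_pos (finrank F V) with h0 | hpos
    · exact ih Q J J' hQ (by omega) hJ hJ'
    obtain ⟨v, v', hv, hvv'⟩ := exists_match h2 hδ hQ hJ hJ' hpos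
    have hv' : hVal Q δ J' v' ≠ 0 := hvv' ▸ hv
    have hδ0 : δ ≠ 0 := fun h => hδ (h ▸ ⟨0, by simp⟩)
    have hq : Q v = Q v' := congrArg QuadraticAlgebra.re hvv'
    have hp : pol Q v (J v) = pol Q v' (J' v') := by
      have h : pol Q v (J v) / (2 * δ) = pol Q v' (J' v') / (2 * δ) := congrArg QuadraticAlgebra.im hvv'
      field_simp at h
      exact h
    obtain ⟨hP, hPd⟩ := line_nondeg h2 hδ hJ hv
    set W := Submodule.span F ({v, J v} : Set V) with hW
    -- the map on the plane
    have hyJ : pol Q (J v) v = pol Q v (J v) := QuadraticMap.polar_comm _ _ _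
    have hJJ : pol Q (J v) (J v) = 2 * (δ * Q v) := by rw [pol_self, qJ h2 hJ]
    have hdet := gram_ne_zero h2 hδ hv
    set D := 4 * δ * Q v * Q v - pol Q v (J v) * pol Q v (J v) with hD
    let φ : V →ₗ[F] V :=
      (D⁻¹ • ((2 * δ * Q v) • QuadraticMap.polarBilin Q v - pol Q v (J v) • QuadraticMap.polarBilin Q (J v))).smulRight v'
      + (D⁻¹ • ((2 * Q v) • QuadraticMap.polarBilin Q (J v) - pol Q v (J v) • QuadraticMap.polarBilin Q v)).smulRight (J' v')
    have hφ : ∀ a b : F, φ (a • v + b • J v) = a • v' + b • J' v' := by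
      intro a b
      simp only [φ, LinearMap.add_apply, LinearMap.smulRight_apply, LinearMap.smul_apply, LinearMap.sub_apply,
        QuadraticMap.polarBilin_apply_apply, QuadraticMap.polar_add_right, QuadraticMap.polar_smul_right,
        smul_eq_mul, pol_self, hyJ, hJJ]
      congr 2 <;> (rw [inv_mul_eq_iff_eq_mul₀ hdet, hD]; ring)
    have hφQ : ∀ x : W, Q (φ (x : V)) = Q (x : V) := fun x => by
      obtain ⟨a, b, h⟩ := Submodule.mem_span_pair.1 x.2
      rw [← h, hφ, q_comb h2 hJ', q_comb h2 hJ, hq, hp]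
    have hinj : Function.Injective (φ ∘ₗ W.subtype) := by
      refine LinearMap.ker_eq_bot.1 (LinearMap.ker_eq_bot'.2 fun x hx => ?_)
      refine Subtype.ext (hP x x.2 fun y hy => ?_)
      have hpol : pol Q (φ (x : V)) (φ y) = pol Q (x : V) y := by
        simp only [QuadraticMap.polar, ← map_add]
        rw [hφQ x, hφQ ⟨y, hy⟩, hφQ ⟨_, W.add_mem x.2 hy⟩]
      rw [← hpol, show φ (x : V) = 0 from hx]
      simp [QuadraticMap.polar]
    obtain ⟨g, hg, hgφ⟩ := CfsgLib.LinAlg.Witt.witt_quadratic Q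
      (LinearMap.ker_eq_bot'.2 fun x hx => hQ x trivial fun y _ => LinearMap.congr_fun hx y)
      W (φ ∘ₗ W.subtype) hinj hφQ
    have hgv : g v = v' := by
      have h := hgφ ⟨v, Submodule.subset_span (by simp)⟩
      rw [h]
      simpa using hφ 1 0
    have hgJv : g (J v) = J' v' := by
      have h := hgφ ⟨J v, Submodule.subset_span (by simp)⟩
      rw [h]
      simpa using hφ 0 1
    -- transport `J'`
    set K : Module.End F V := (g.symm : V →ₗ[F] V) ∘ₗ J' ∘ₗ (g : V →ₗ[F] V) with hK
    have hKa : ∀ y, g (K y) = J' (g y) := fun y => g.apply_symm_apply _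
    have hgp : ∀ a b, pol Q (g a) (g b) = pol Q a b := fun a b => by
      simp only [QuadraticMap.polar, ← map_add, hg]
    have hKs : IsStr Q δ K := ⟨fun y => g.injective (by rw [hKa, hKa, hJ'.sq, map_smul]),
      fun a b => by rw [← hgp, hKa, hJ'.adj, ← hKa, hgp]⟩
    have hKv : K v = J v := g.injective (by rw [hKa, hgv, hgJv])
    have hWJ : ∀ a ∈ W, J a ∈ W ∧ K a = J a := fun a ha => by
      obtain ⟨x, y, rfl⟩ := Submodule.mem_span_pair.1 ha
      refine ⟨Submodule.mem_span_pair.2 ⟨y * δ, x, ?_⟩, ?_⟩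
      · simp only [map_add, map_smul, hJ.sq, smul_smul]; module
      · simp only [map_add, map_smul, hKv, hJ.sq]
        rw [show K (J v) = δ • v by rw [← hKv, hKs.sq]]
    have hs := split hQ hP le_top
    rw [top_inf_eq, finrank_top, hPd] at hs
    have hsd := hs.2.2
    have hO : ∀ {T : Module.End F V}, IsStr Q δ T → (∀ a ∈ W, T a ∈ W) → ∀ b ∈ orth Q W, T b ∈ orth Q W :=
      fun {T} hT hTW b hb => mem_orth.2 fun a ha => by rw [← hT.adj]; exact mem_orth.1 hb _ (hTW a ha)
    have hOJ := hO hJ fun a ha => (hWJ a ha).1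
    have hOK := hO hKs fun a ha => (hWJ a ha).2 ▸ (hWJ a ha).1
    obtain ⟨e, he, heJ⟩ := ih (Q.comp (orth Q W).subtype) (J.restrict hOJ) (K.restrict hOK) (nondegIn_comp' hs.2.1)
      (by omega) ⟨fun y => Subtype.ext (hJ.sq y), fun a b => hJ.adj a b⟩
      ⟨fun y => Subtype.ext (hKs.sq y), fun a b => hKs.adj a b⟩
    obtain ⟨T, hTA, hTB⟩ := exists_glue hP (LinearMap.id : W →ₗ[F] W) (e : orth Q W →ₗ[F] orth Q W)
    have hTq : ∀ y, Q (T y) = Q y := fun y => by
      obtain ⟨a, b, rfl⟩ := decomp hP y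
      rw [map_add, hTA, hTB, QuadraticMap.map_add (f := ⇑Q), QuadraticMap.map_add (f := ⇑Q) (a : V),
        mem_orth.1 b.2 a a.2]
      simp only [LinearMap.id_apply, LinearEquiv.coe_coe]
      rw [mem_orth.1 (e b).2 a a.2]
      have := he b
      simp only [QuadraticMap.comp_apply, Submodule.subtype_apply] at this
      simp [this]
    have hTinj : Function.Injective T := LinearMap.ker_eq_bot.1 (LinearMap.ker_eq_bot'.2 fun y hy => by
      refine hQ y trivial fun z _ => ?_
      have h : pol Q (T y) (T z) = pol Q y z := by simp only [QuadraticMap.polar, ← map_add, hTq]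
      rw [← h, hy]; simp [QuadraticMap.polar])
    refine ⟨(LinearEquiv.ofInjectiveEndo T hTinj).trans g, fun y => ?_, fun y => ?_⟩
    · simp only [LinearEquiv.trans_apply, LinearEquiv.coe_ofInjectiveEndo, hg, hTq]
    · simp only [LinearEquiv.trans_apply, LinearEquiv.coe_ofInjectiveEndo]
      rw [← hKa]
      congr 1
      obtain ⟨a, b, rfl⟩ := decomp hP y
      have h1 := congrArg Subtype.val (heJ b)
      simp only [LinearMap.restrict_apply] at h1
      rw [map_add, map_add, show T (J (a : V)) = J (a : V) from hTA ⟨_, (hWJ a a.2).1⟩,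
        show T (J (b : V)) = _ from hTB ⟨_, hOJ b b.2⟩, map_add, hTA, hTB, map_add]
      simp only [LinearMap.id_apply, LinearEquiv.coe_coe]
      rw [(hWJ a a.2).2]
      exact congrArg _ h1

end CfsgLib.C3Derange
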