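import Mathlib

/-!
Fixed points of a properly semilinear map over an extension of prime degree.
-/

set_option autoImplicit false

namespace CfsgLib.C3Derange

open Module

variable {F L V : Type*} [Field F] [Field L] [Algebra F L] [AddCommGroup V] [Module F V] [Module L V]
  [IsScalarTower F L V]

/-- The scalars commuting with `f`. -/
def commutingScalars (f : V →ₗ[F] V) : Subalgebra F L where
  carrier := {l | ∀ y, f (l • y) = l • f y}
  mul_mem' {a b} ha hb y := by rw [mul_smul, ha, hb, mul_smul]
  add_mem' {a b} ha hb y := by rw [add_smul, map_add, ha, hb, add_smul]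
  algebraMap_mem' c y := by simp [algebraMap_smul]

theorem eq_algebraMap_of_commuting (hp : (finrank F L).Prime) {f : V →ₗ[F] V}
    (hne : ∃ (l : L) (y : V), f (l • y) ≠ l • f y) {c : L} (hc : ∀ y, f (c • y) = c • f y) :
    ∃ a : F, algebraMap F L a = c := by
  have := Subalgebra.isSimpleOrder_of_finrank_prime F L hp
  rcases IsSimpleOrder.eq_bot_or_eq_top (commutingScalars (L := L) f) with h | h
  · have hcm : c ∈ commutingScalars (L := L) f := hc
    rw [h, Algebra.mem_bot] at hcm
    exact hcm
  · obtain ⟨l, y, hly⟩ := hne
    have hl : l ∈ commutingScalars (L := L) f := h ▸ Algebra.mem_top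
    exact absurd (hl y) hly

/-- Fixed vectors of a properly semilinear map stay independent over the extension. -/
theorem linearIndependent_fixed (hp : (finrank F L).Prime) {f : V →ₗ[F] V}
    (hsemi : ∀ l : L, ∃ l' : L, ∀ y, f (l • y) = l' • f y)
    (hne : ∃ (l : L) (y : V), f (l • y) ≠ l • f y) {ι : Type*} {v : ι → V}
    (hv : LinearIndependent F v) (hfix : ∀ i, f (v i) = v i) : LinearIndependent L v := by
  classical
  choose σ hσ using hsemi
  rw [linearIndependent_iff']
  intro s
  induction s using Finset.induction with
  | empty => simp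
  | @insert a t ha ih =>
    intro c hc
    have hca : c a = 0 := by
      by_contra hca
      -- normalise the coefficient of `a`
      set c' : ι → L := fun i => (c a)⁻¹ * c i with hc'
      have hsum : v a + ∑ i ∈ t, c' i • v i = 0 := by
        have h1 := congrArg (fun z => (c a)⁻¹ • z) hc
        rw [Finset.sum_insert ha] at h1
        simpa [hc', smul_add, smul_smul, Finset.smul_sum, hca] using h1
      have hsum' : v a + ∑ i ∈ t, σ (c' i) • v i = 0 := by
        have h1 := congrArg f hsum
        simpa [map_sum, hσ, hfix] using h1
      have hdiff : ∑ i ∈ t, (σ (c' i) - c' i) • v i = 0 := by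
        simp only [sub_smul, Finset.sum_sub_distrib]
        rw [← add_sub_add_left_eq_sub _ _ (v a), hsum, hsum', sub_self]
      have hfx : ∀ i ∈ t, ∃ b : F, algebraMap F L b = c' i := fun i hi =>
        eq_algebraMap_of_commuting hp hne fun y => by
          rw [hσ, sub_eq_zero.1 (ih _ hdiff i hi)]
      choose! b hb using hfx
      have h0 : ∑ i ∈ insert a t, (if i = a then 1 else b i) • v i = 0 := by
        rw [Finset.sum_insert ha, if_pos rfl, one_smul]
        refine Eq.trans (congrArg _ (Finset.sum_congr rfl fun i hi => ?_)) hsum
        rw [if_neg (fun (h : i = a) => ha (h ▸ hi)), ← hb i hi, algebraMap_smul]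
      have h1 := linearIndependent_iff'.1 hv _ _ h0 a (Finset.mem_insert_self a t)
      simp at h1
    intro i hi
    rw [Finset.sum_insert ha, hca, zero_smul, zero_add] at hc
    rcases Finset.mem_insert.1 hi with rfl | hi
    · exact hca
    · exact ih _ hc i hi

/-- A properly semilinear map fixes a space of dimension at most `dim_L V`. -/
theorem finrank_fixed_le [FiniteDimensional F V] [FiniteDimensional L V] (hp : (finrank F L).Prime)
    {f : V →ₗ[F] V} (hsemi : ∀ l : L, ∃ l' : L, ∀ y, f (l • y) = l' • f y)
    (hne : ∃ (l : L) (y : V), f (l • y) ≠ l • f y) {U : Submodule F V} (hU : ∀ u ∈ U, f u = u) :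
    finrank F U ≤ finrank L V := by
  let b := Module.finBasis F U
  have hli : LinearIndependent F (fun i => (b i : V)) :=
    b.linearIndependent.map' U.subtype U.ker_subtype
  have := (linearIndependent_fixed hp hsemi hne hli fun i => hU _ (b i).2).fintype_card_le_finrank
  simpa using this

end CfsgLib.C3Derange
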