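import Cfsg.Agent.C3Derange.Semilinear
import Cfsg.Agent.C3Max.SympMatrix
import Cfsg.Agent.Classical.Semisimple.SympModel

/-!
Elements of the symplectic group normalising a self-adjoint extension field of prime degree.
-/

set_option autoImplicit false
set_option linter.style.haveILetI false
set_option linter.unusedSectionVars false

namespace CfsgLib.C3Derange

open Module Matrix CfsgLib.FieldExtMax CfsgLib.Classical.Semisimple CfsgLib.Classical.Semisimple.AltIsometry
open CfsgLib.Classical.Semisimple.SympModel (formB formB_apply)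

variable {F : Type*} [Field F] [Fintype F] {d k r : ℕ}
  {K : Subalgebra F (Matrix (Fin d ⊕ Fin d) (Fin d ⊕ Fin d) F)}

/-- The moved space of a semisimple isometry is non-degenerate. -/
theorem nondegIn_moved {f : Module.End F (Fin d ⊕ Fin d → F)}
    (hiso : ∀ u v, formB d F (f u) (f v) = formB d F u v) (hr : (r : F) ≠ 0) (hf : f ^ r = 1) :
    NondegIn (formB d F) (moved f) := by
  have hcompl : IsCompl (fixed f) (moved f) := isCompl_ker_range (isSemisimple_of_pow_eq_one hr hf) 1
  intro v hv hperp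
  refine Classical.Symp.eq_zero_of_form_eq_zero fun a => ?_
  obtain ⟨u, hu, w, hw, rfl⟩ := Submodule.mem_sup.1
    (hcompl.sup_eq_top ▸ Submodule.mem_top : a ∈ fixed f ⊔ moved f)
  rw [← formB_apply, map_add, hperp w hw, add_zero]
  obtain ⟨b, rfl⟩ := hv
  have hfu : f u = u := mem_fixed.1 hu
  rw [LinearMap.sub_apply, map_sub, LinearMap.sub_apply]
  simp only [LinearMap.smul_apply, Module.End.one_apply, one_smul]
  conv_lhs => arg 1; arg 2; rw [← hfu]
  rw [hiso, sub_self]

/-- The dichotomy for elements of order `r` in the normaliser. -/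
theorem obstruction (hd : 0 < d) (hk : k.Prime) (hK : Cfsg.Geo.IsFieldSubalgebra k K)
    (hsa : Cfsg.Geo.IsSelfAdjointFor (Cfsg.sympForm d F) K)
    (hKalt : ∀ a ∈ K, ∀ v : Fin d ⊕ Fin d → F, Cfsg.sympForm d F (a *ᵥ v) v = 0)
    (hr : r.Prime) {x : GL (Fin d ⊕ Fin d) F} (hxs : x ∈ Cfsg.spGL d F)
    (hxN : x ∈ Cfsg.Geo.subalgebraNormalizer K) (hxr : x ^ r = 1) :
    (k ∣ finrank F (moved (Matrix.toLin' (x : Matrix (Fin d ⊕ Fin d) (Fin d ⊕ Fin d) F))) ∧
      ((r : F) ≠ 0 → 2 * k ∣ finrank F (moved (Matrix.toLin' (x : Matrix (Fin d ⊕ Fin d) (Fin d ⊕ Fin d) F))))) ∨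
    (r = k ∧ k * finrank F (fixed (Matrix.toLin' (x : Matrix (Fin d ⊕ Fin d) (Fin d ⊕ Fin d) F))) ≤ 2 * d) := by
  classical
  haveI : Nonempty (Fin d ⊕ Fin d) := ⟨.inl ⟨0, hd⟩⟩
  letI : Field K := fieldOf hK
  letI : Module K (Fin d ⊕ Fin d → F) := moduleOf K
  haveI : IsScalarTower F K (Fin d ⊕ Fin d → F) :=
    ⟨fun c l y => smul_mulVec c (l : Matrix (Fin d ⊕ Fin d) (Fin d ⊕ Fin d) F) y⟩
  haveI : FiniteDimensional F K := Module.Finite.of_finite
  haveI : IsGalois F K := GaloisField.instIsGaloisOfFinite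
  haveI : FiniteDimensional K (Fin d ⊕ Fin d → F) := Module.Finite.of_finite
  have hfr : finrank F K = k := hK.finrank_eq
  set f : Module.End F (Fin d ⊕ Fin d → F) :=
    Matrix.toLin' (x : Matrix (Fin d ⊕ Fin d) (Fin d ⊕ Fin d) F) with hf
  have hfx : ∀ y, f y = (x : Matrix (Fin d ⊕ Fin d) (Fin d ⊕ Fin d) F) *ᵥ y := fun y => rfl
  have hfr1 : f ^ r = 1 := by
    rw [hf, Classical.Semisimple.toLin'_pow, ← Units.val_pow_eq_pow_val, hxr, Units.val_one, Matrix.toLin'_one]; rfl
  have hiso : ∀ u v, formB d F (f u) (f v) = formB d F u v := SympFormStd.mem_spGL.1 hxs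
  have hsemi : ∀ l : K, ∃ l' : K, ∀ y, f (l • y) = l' • f y := fun l => by
    obtain ⟨k', hk', he⟩ := (mem_normalizer_iff hK x).1 hxN l l.2
    exact ⟨⟨k', hk'⟩, fun y => he y⟩
  by_cases hlin : ∀ (l : K) (y : Fin d ⊕ Fin d → F), f (l • y) = l • f y
  · refine Or.inl ?_
    let W : Submodule K (Fin d ⊕ Fin d → F) :=
      { toAddSubmonoid := (moved f).toAddSubmonoid
        smul_mem' := by
          rintro l _ ⟨a, rfl⟩
          exact ⟨l • a, by simp [hlin, smul_sub]⟩ }
    have hW : (W.restrictScalars F) = moved f := Submodule.ext fun _ => Iff.rfl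
    have hdim : k * finrank K W = finrank F (moved f) := by
      rw [← hfr, Module.finrank_mul_finrank]
      exact (LinearEquiv.ofEq _ _ hW).finrank_eq
    refine ⟨⟨_, hdim.symm⟩, fun hr0 => ?_⟩
    by_cases hk2 : k = 2
    · subst hk2
      obtain ⟨B, hB⟩ := C3Max.exists_bilinear (L := K) (formB d F) fun l u v => hsa l l.2 u v
      have hnd := nondegIn_moved hiso hr0 hfr1
      by_cases hev : Even (finrank K W)
      · obtain ⟨j, hj⟩ := hev
        exact ⟨j, by rw [← hdim, hj]; ring⟩
      exfalso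
      -- an alternating form in odd dimension is degenerate
      have halt : ∀ v, B v v = 0 := fun v => C3Max.eq_zero_of_trace (F := F) fun l => by
        rw [← smul_eq_mul, ← LinearMap.smul_apply, ← map_smul, hB]
        exact hKalt l l.2 v
      exact hev (even_finrank (B := B) halt (U := W) fun u hu h0 => hnd u hu fun v hv => by
        rw [← hB, h0 v hv, map_zero])
    · obtain ⟨j, hj⟩ := even_finrank (B := formB d F) (fun u => Classical.Symp.form_self u)
        (nondegIn_moved hiso hr0 hfr1)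
      exact Nat.Coprime.mul_dvd_of_dvd_of_dvd
        ((Nat.coprime_primes Nat.prime_two hk).2 (Ne.symm hk2)) ⟨j, by omega⟩ ⟨_, hdim.symm⟩
  · refine Or.inr ⟨?_, ?_⟩
    · push Not at hlin
      choose σ hσ using hsemi
      obtain ⟨l₀, y₀, hne⟩ := hlin
      have hinj : Function.Injective f := fun a b hab => by
        have h1 : ∀ a, (f ^ r) a = a := fun a => by rw [hfr1]; rfl
        rw [← h1 a, ← h1 b, show r = r - 1 + 1 from (Nat.sub_add_cancel hr.one_le).symm, pow_succ,
          Module.End.mul_apply, Module.End.mul_apply, hab]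
      obtain ⟨y₁, hy₁⟩ := exists_ne (0 : Fin d ⊕ Fin d → F)
      have hy : f y₁ ≠ 0 := fun h => hy₁ (hinj (h.trans (map_zero f).symm))
      let φ : K →ₐ[F] K :=
        { toFun := σ
          map_one' := smul_left_injective K hy (by simp [← hσ])
          map_mul' := fun a b => smul_left_injective K hy (by
            show σ (a * b) • f y₁ = (σ a * σ b) • f y₁
            rw [← hσ, mul_smul, hσ, hσ, mul_smul])
          map_zero' := smul_left_injective K hy (by simp [← hσ])
          map_add' := fun a b => smul_left_injective K hy (by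
            show σ (a + b) • f y₁ = (σ a + σ b) • f y₁
            rw [← hσ, add_smul, map_add, hσ, hσ, add_smul])
          commutes' := fun c => smul_left_injective K hy (by
            show σ (algebraMap F K c) • f y₁ = algebraMap F K c • f y₁
            rw [← hσ, algebraMap_smul, map_smul, algebraMap_smul]) }
      let e : K ≃ₐ[F] K := AlgEquiv.ofBijective φ (Algebra.IsAlgebraic.algHom_bijective φ)
      have hpow : ∀ (n : ℕ) (l : K) y, (f ^ n) (l • y) = (e ^ n) l • (f ^ n) y := by
        intro n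
        induction n with
        | zero => simp
        | succ n ih =>
          intro l y
          rw [pow_succ', Module.End.mul_apply, ih, hσ, pow_succ' e]
          rfl
      have her : e ^ r = 1 := AlgEquiv.ext fun l => smul_left_injective K hy₁ (by
        have := hpow r l y₁
        rw [hfr1] at this
        exact this.symm)
      have hek : e ^ k = 1 := by
        have := pow_card_eq_one' (G := K ≃ₐ[F] K) (x := e)
        rwa [IsGalois.card_aut_eq_finrank, hfr] at this
      by_contra hrk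
      have : e = 1 := by
        have h1 := pow_gcd_eq_one.2 ⟨her, hek⟩
        rwa [(Nat.coprime_primes hr hk).2 hrk, pow_one] at h1
      refine hne ?_
      rw [hσ, show σ l₀ = e l₀ from rfl, this]
      rfl
    · push Not at hlin
      obtain ⟨l₀, y₀, hne⟩ := hlin
      have h1 := finrank_fixed_le (L := K) (by rw [hfr]; exact hk) hsemi ⟨l₀, y₀, hne⟩
        (U := fixed f) fun u hu => mem_fixed.1 hu
      calc k * finrank F (fixed f) ≤ k * finrank K (Fin d ⊕ Fin d → F) := Nat.mul_le_mul le_rfl h1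
        _ = 2 * d := by rw [← hfr, Module.finrank_mul_finrank]; simp [two_mul]

/-- The normaliser contains a symplectic group over the extension field. -/
theorem card_sp_dvd (hd : 0 < d) (hK : Cfsg.Geo.IsFieldSubalgebra k K)
    (hsa : Cfsg.Geo.IsSelfAdjointFor (Cfsg.sympForm d F) K)
    (hKalt : ∀ a ∈ K, ∀ v : Fin d ⊕ Fin d → F, Cfsg.sympForm d F (a *ᵥ v) v = 0) :
    ∃ d' : ℕ, k * d' = d ∧ (Fintype.card F ^ k) ^ (d' ^ 2) *
      ∏ i ∈ Finset.range d', ((Fintype.card F ^ k) ^ (2 * (i + 1)) - 1) ∣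
        Nat.card ↥(Cfsg.Geo.subalgebraNormalizer K ⊓ Cfsg.spGL d F) := by
  classical
  haveI : Nonempty (Fin d ⊕ Fin d) := ⟨.inl ⟨0, hd⟩⟩
  letI : Field K := fieldOf hK
  letI : Module K (Fin d ⊕ Fin d → F) := moduleOf K
  haveI : IsScalarTower F K (Fin d ⊕ Fin d → F) :=
    ⟨fun c l y => smul_mulVec c (l : Matrix (Fin d ⊕ Fin d) (Fin d ⊕ Fin d) F) y⟩
  haveI : FiniteDimensional F K := Module.Finite.of_finite
  haveI : IsGalois F K := GaloisField.instIsGaloisOfFinite
  haveI : FiniteDimensional K (Fin d ⊕ Fin d → F) := Module.Finite.of_finite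
  haveI : Fintype K := Fintype.ofFinite K
  have hfr : finrank F K = k := hK.finrank_eq
  obtain ⟨B, hB⟩ := C3Max.exists_bilinear (L := K) (formB d F) fun l u v => hsa l l.2 u v
  have halt : ∀ v, B v v = 0 := fun v => C3Max.eq_zero_of_trace (F := F) fun l => by
    rw [← smul_eq_mul, ← LinearMap.smul_apply, ← map_smul, hB]
    exact hKalt l l.2 v
  obtain ⟨d', b, hd', hb1, hb2, hb3⟩ := LinAlg.Witt.exists_symplectic_basis B halt
    (LinearMap.ker_eq_bot'.2 fun u hu => Classical.Symp.eq_zero_of_form_eq_zero fun v => by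
      rw [← formB_apply, ← hB, hu]; simp)
  refine ⟨d', ?_, ?_⟩
  · have h1 := Module.finrank_mul_finrank F K (Fin d ⊕ Fin d → F)
    rw [hfr, hd'] at h1
    have h2 : finrank F (Fin d ⊕ Fin d → F) = 2 * d := by simp [two_mul]
    rw [h2, mul_left_comm] at h1
    omega
  let e : (Fin d' ⊕ Fin d' → K) ≃ₗ[K] (Fin d ⊕ Fin d → F) :=
    (b.reindex (Equiv.sumComm _ _)).equivFun.symm
  have he : ∀ u v, B (e u) (e v) = Cfsg.sympForm d' K u v := by
    have hbil : B.compl₁₂ e.toLinearMap e.toLinearMap = formB d' K := by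
      refine LinearMap.ext_basis (Pi.basisFun K _) (Pi.basisFun K _) fun i j => ?_
      rw [Pi.basisFun_apply, Pi.basisFun_apply, LinearMap.compl₁₂_apply]
      have hs : ∀ i, e (Pi.single i 1) = b i.swap := fun i => by
        show (b.reindex (Equiv.sumComm _ _)).equivFun.symm _ = _
        simp [Basis.equivFun_symm_apply, Pi.single_apply]
      simp only [LinearEquiv.coe_coe, hs, formB_apply]
      rcases i with i | i <;> rcases j with j | j <;> simp only [Sum.swap_inl, Sum.swap_inr]
      · exact (hb3 i j).trans (Classical.Symp.form_stdF_stdF i j).symm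
      · refine Eq.trans ?_ (Classical.Symp.form_stdF_stdE i j).symm
        rw [show B (b (Sum.inr i)) (b (Sum.inl j)) = -B (b (Sum.inl j)) (b (Sum.inr i)) from
          (LinearMap.IsAlt.neg halt _ _).symm, hb1]
        by_cases h : i = j
        · rw [if_pos h, if_pos h.symm]
        · rw [if_neg h, if_neg (Ne.symm h), neg_zero]
      · exact (hb1 i j).trans (Classical.Symp.form_stdE_stdF i j).symm
      · exact (hb2 i j).trans (Classical.Symp.form_stdE_stdE i j).symm
    intro u v
    exact LinearMap.congr_fun (LinearMap.congr_fun hbil u) v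
  let E : Matrix.symplecticGroup (Fin d') K → ((Fin d ⊕ Fin d → F) →ₗ[F] (Fin d ⊕ Fin d → F)) := fun g =>
    (e.toLinearMap ∘ₗ Matrix.toLin' (g : Matrix (Fin d' ⊕ Fin d') (Fin d' ⊕ Fin d') K) ∘ₗ
      e.symm.toLinearMap).restrictScalars F
  let ψ : Matrix.symplecticGroup (Fin d') K →* GL (Fin d ⊕ Fin d) F :=
    MonoidHom.toHomUnits
      { toFun := fun g => LinearMap.toMatrix' (E g)
        map_one' := by
          rw [show E 1 = LinearMap.id from LinearMap.ext fun y => by simp [E], LinearMap.toMatrix'_id]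
        map_mul' := fun g h => by
          rw [← LinearMap.toMatrix'_comp]
          exact congrArg _ (LinearMap.ext fun y => by simp [E, Matrix.mulVec_mulVec]) }
  have hψ : ∀ g y, (ψ g : Matrix (Fin d ⊕ Fin d) (Fin d ⊕ Fin d) F) *ᵥ y =
      e ((g : Matrix (Fin d' ⊕ Fin d') (Fin d' ⊕ Fin d') K) *ᵥ e.symm y) := fun g y =>
    LinearMap.toMatrix'_mulVec (E g) y
  have hle : ψ.range ≤ Cfsg.Geo.subalgebraNormalizer K ⊓ Cfsg.spGL d F := by
    rintro _ ⟨g, rfl⟩
    refine ⟨(mem_normalizer_iff hK _).2 fun l hl => ⟨l, hl, fun y => ?_⟩, SympFormStd.mem_spGL.2 fun u v => ?_⟩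
    · rw [hψ, hψ]
      show e (_ *ᵥ e.symm ((⟨l, hl⟩ : K) • y)) = (⟨l, hl⟩ : K) • e _
      rw [map_smul, Matrix.mulVec_smul, map_smul]
    · rw [← formB_apply, ← formB_apply, ← hB, ← hB, hψ, hψ, he, Classical.Symp.form_mulVec, ← he,
        LinearEquiv.apply_symm_apply, LinearEquiv.apply_symm_apply]
  have hinj : Function.Injective ψ := fun g h hgh => Classical.Symp.symp_ext fun y => e.injective (by
    have h1 : (ψ g : Matrix (Fin d ⊕ Fin d) (Fin d ⊕ Fin d) F) *ᵥ e y =
        (ψ h : Matrix (Fin d ⊕ Fin d) (Fin d ⊕ Fin d) F) *ᵥ e y := by rw [hgh]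
    rwa [hψ, hψ, LinearEquiv.symm_apply_apply] at h1)
  refine dvd_trans ?_ (Subgroup.card_dvd_of_le hle)
  rw [Nat.card_congr (MonoidHom.ofInjective hinj).toEquiv.symm, Classical.Symp.card_symplecticGroup,
    ← Nat.card_eq_fintype_card (α := K), Module.natCard_eq_pow_finrank (K := F), hfr,
    Nat.card_eq_fintype_card]

end CfsgLib.C3Derange
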