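import Cfsg.Agent.C3Derange.UnitaryField

/-!
The normaliser of a unitary structure contains a copy of `GU_d(q)`.
-/

set_option autoImplicit false
set_option linter.style.haveILetI false

namespace CfsgLib.C3Derange

open Module Matrix CfsgLib.FieldExtMax CfsgLib.Classical.Symp

variable {F : Type*} [Field F] [Fintype F] {d : ℕ}
  {K : Subalgebra F (Matrix (Fin d ⊕ Fin d) (Fin d ⊕ Fin d) F)}

local notation "Mat" => Matrix (Fin d ⊕ Fin d) (Fin d ⊕ Fin d) F
local notation "β" => Cfsg.sympForm d F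

theorem UStr.card_gu_dvd (hd : 0 < d) (hodd : Odd (Fintype.card F)) (hK : Cfsg.Geo.IsFieldSubalgebra 2 K)
    {J : Matrix (Fin d ⊕ Fin d) (Fin d ⊕ Fin d) F} {δ : F} (hS : UStr K J δ) :
    Fintype.card F ^ (d * (d - 1) / 2) * ∏ i ∈ Finset.range d,
        (if Even i then Fintype.card F ^ (i + 1) + 1 else Fintype.card F ^ (i + 1) - 1) ∣
      Nat.card ↥(Cfsg.Geo.subalgebraNormalizer K ⊓ Cfsg.spGL d F) := by
  classical
  haveI : Nonempty (Fin d ⊕ Fin d) := ⟨.inl ⟨0, hd⟩⟩
  letI : Field K := fieldOf hK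
  haveI : Fintype K := Fintype.ofFinite K
  set q := Fintype.card F with hq
  have hcard : Fintype.card K = q ^ 2 := by
    rw [← Nat.card_eq_fintype_card, Module.natCard_eq_pow_finrank (K := F), Nat.card_eq_fintype_card,
      hK.finrank_eq]
  let Jk : K := ⟨J, hS.mem⟩
  have hJk : Jk * Jk = algebraMap F K δ := Subtype.ext (by
    rw [Subalgebra.coe_algebraMap, Algebra.algebraMap_eq_smul_one]
    exact hS.mul_self)
  -- the conjugation
  have hconj : ∀ a b : F, (a • (1 : K) + b • Jk) ^ q = a • (1 : K) + (-b) • Jk := by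
    intro a b
    have hch : ringChar F ≠ 2 := fun h => by
      have := FiniteField.even_card_of_char_two h
      rw [Nat.odd_iff] at hodd
      omega
    have hJq : Jk ^ q = -Jk := by
      obtain ⟨m, hm⟩ := hodd
      have h1 : δ ^ (q / 2) = -1 := (FiniteField.pow_dichotomy hch hS.ne_zero).resolve_left fun h =>
        hS.nonsq ((FiniteField.isSquare_iff hch hS.ne_zero).2 h)
      rw [show q / 2 = m by omega] at h1
      rw [show q = 2 * m + 1 by omega, pow_succ, pow_mul, pow_two, hJk, ← map_pow, h1, map_neg, map_one,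
        neg_one_mul]
    have h := map_add (FiniteField.frobeniusAlgHom F K) (a • (1 : K)) (b • Jk)
    rw [map_smul, map_smul, map_one, FiniteField.frobeniusAlgHom_apply, FiniteField.frobeniusAlgHom_apply,
      hJq] at h
    rw [h, neg_smul, smul_neg]
  -- coordinates
  let φ : (Fin d ⊕ Fin d → F) →ₗ[F] (Fin d → K) :=
    { toFun := fun y i => y (Sum.inr i) • (1 : K) + y (Sum.inl i) • Jk
      map_add' := fun y y' => funext fun i => by simp only [Pi.add_apply, add_smul]; abel
      map_smul' := fun c y => funext fun i => by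
        simp only [Pi.smul_apply, smul_eq_mul, RingHom.id_apply, smul_add, smul_smul] }
  have hcoord : ∀ a b a' b' : F, a • (1 : K) + b • Jk = a' • (1 : K) + b' • Jk → a = a' ∧ b = b' := by
    intro a b a' b' h
    obtain ⟨h1, h2⟩ := hS.indep hd (a := a - a') (b := b - b') (by
      have h' := congrArg Subtype.val h
      simp only [Subalgebra.coe_add, Subalgebra.coe_smul, Subalgebra.coe_one] at h'
      change a • (1 : Mat) + b • J = a' • (1 : Mat) + b' • J at h'
      linear_combination (norm := module) h')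
    exact ⟨sub_eq_zero.1 h1, sub_eq_zero.1 h2⟩
  have hφ : Function.Bijective φ := by
    refine ⟨fun y y' h => funext fun i => ?_, fun u => ?_⟩
    · rcases i with i | i
      · exact (hcoord _ _ _ _ (congrFun h i)).2
      · exact (hcoord _ _ _ _ (congrFun h i)).1
    · choose a b hab using fun i => hS.gen _ (u i).2
      exact ⟨Sum.elim b a, funext fun i => Subtype.ext (by
        show a i • (1 : Mat) + b i • J = _
        exact (hab i).symm)⟩
  let e := LinearEquiv.ofBijective φ hφ
  -- the form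
  have hform : ∀ y y', ∃ A : F, Cfsg.hermForm d K q (φ y) (φ y') = A • (1 : K) + (-β y y') • Jk := by
    intro y y'
    refine ⟨∑ i, (y (Sum.inr i) * y' (Sum.inr i) - δ * (y (Sum.inl i) * y' (Sum.inl i))), ?_⟩
    rw [Cfsg.hermForm, form_apply, ← Finset.sum_neg_distrib, Finset.sum_smul, Finset.sum_smul,
      ← Finset.sum_add_distrib]
    refine Finset.sum_congr rfl fun i _ => ?_
    show (y (Sum.inr i) • (1 : K) + y (Sum.inl i) • Jk) * (y' (Sum.inr i) • (1 : K) + y' (Sum.inl i) • Jk) ^ q = _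
    rw [hconj]
    simp only [Algebra.smul_def, mul_one, map_sub, map_mul, map_neg, ← hJk]
    ring
  -- the embedding
  obtain ⟨T, hT, hJT⟩ := exists_normal_form hS.two hS.ne_zero hS.sq hS.adj
  let E : Cfsg.GU d K q → ((Fin d ⊕ Fin d → F) →ₗ[F] (Fin d ⊕ Fin d → F)) := fun g =>
    e.symm.toLinearMap ∘ₗ (Matrix.toLin' ((g : GL (Fin d) K) : Matrix (Fin d) (Fin d) K)).restrictScalars F ∘ₗ
      e.toLinearMap
  let ψ : Cfsg.GU d K q →* GL (Fin d ⊕ Fin d) F :=
    MonoidHom.toHomUnits
      { toFun := fun g => LinearMap.toMatrix' (E g)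
        map_one' := by
          rw [show E 1 = LinearMap.id from LinearMap.ext fun y => by simp [E], LinearMap.toMatrix'_id]
        map_mul' := fun g h => by
          rw [← LinearMap.toMatrix'_comp]
          exact congrArg _ (LinearMap.ext fun y => by simp [E, Matrix.mulVec_mulVec]) }
  have hψ : ∀ g y, e ((ψ g : Mat) *ᵥ y) = ((g : GL (Fin d) K) : Matrix (Fin d) (Fin d) K) *ᵥ e y := fun g y => by
    rw [show (ψ g : Mat) *ᵥ y = E g y from LinearMap.toMatrix'_mulVec _ _]
    simp [E]
  have hblock : ∀ y, e (block d 0 1 δ 0 *ᵥ y) = Jk • e y := by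
    intro y
    refine funext fun i => ?_
    show (block d 0 1 δ 0 *ᵥ y) (Sum.inr i) • (1 : K) + (block d 0 1 δ 0 *ᵥ y) (Sum.inl i) • Jk =
      Jk * (y (Sum.inr i) • (1 : K) + y (Sum.inl i) • Jk)
    rw [block_mulVec]
    simp only [Sum.elim_inl, Sum.elim_inr, zero_mul, add_zero, zero_add, one_mul, Algebra.smul_def, mul_one,
      map_mul, ← hJk]
    ring
  let ψ' : Cfsg.GU d K q →* GL (Fin d ⊕ Fin d) F := (MulAut.conj T).toMonoidHom.comp ψ
  have hψ' : ∀ g, ψ' g = T * ψ g * T⁻¹ := fun g => rfl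
  have hle : ψ'.range ≤ Cfsg.Geo.subalgebraNormalizer K ⊓ Cfsg.spGL d F := by
    rintro _ ⟨g, rfl⟩
    have hsp : ψ g ∈ Cfsg.spGL d F := SympFormStd.mem_spGL.2 fun u v => by
      obtain ⟨A, hA⟩ := hform ((ψ g : Mat) *ᵥ u) ((ψ g : Mat) *ᵥ v)
      obtain ⟨A', hA'⟩ := hform u v
      have h := g.2 (e u) (e v)
      change Cfsg.hermForm d K q (((g : GL (Fin d) K) : Matrix (Fin d) (Fin d) K) *ᵥ e u)
        (((g : GL (Fin d) K) : Matrix (Fin d) (Fin d) K) *ᵥ e v) = _ at h
      rw [← hψ, ← hψ] at h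
      exact neg_injective (hcoord _ _ _ _ (hA.symm.trans (h.trans hA'))).2
    have hcomm : (ψ g : Mat) * block d 0 1 δ 0 = block d 0 1 δ 0 * (ψ g : Mat) :=
      Matrix.ext_of_mulVec_single fun i => e.injective (by
        rw [← Matrix.mulVec_mulVec, ← Matrix.mulVec_mulVec, hψ, hblock, hblock, hψ, Matrix.mulVec_smul])
    refine ⟨hS.mem_normalizer hK (s := 1) ?_, (Cfsg.spGL d F).mul_mem ((Cfsg.spGL d F).mul_mem hT hsp) ((Cfsg.spGL d F).inv_mem hT)⟩
    rw [one_smul, hψ', Units.val_mul, Units.val_mul]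
    have hJ : J = (T : Mat) * block d 0 1 δ 0 * ((T⁻¹ : GL (Fin d ⊕ Fin d) F) : Mat) := by
      rw [← hJT, mul_assoc, ← Units.val_mul, mul_inv_cancel, Units.val_one, mul_one]
    have hcancel : ∀ M : Mat, ((T⁻¹ : GL (Fin d ⊕ Fin d) F) : Mat) * ((T : Mat) * M) = M := fun M => by
      rw [← mul_assoc, ← Units.val_mul, inv_mul_cancel, Units.val_one, one_mul]
    rw [hJ]
    simp only [mul_assoc, hcancel]
    rw [← mul_assoc (ψ g : Mat), hcomm, mul_assoc]
  have hinj : Function.Injective ψ' := (MulAut.conj T).injective.comp fun g h hgh =>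
    Subtype.ext (Units.ext (Matrix.ext_of_mulVec_single fun i => by
      obtain ⟨y, hy⟩ := e.surjective (Pi.single i 1)
      rw [← hy, ← hψ, ← hψ, hgh]))
  refine dvd_trans ?_ (Subgroup.card_dvd_of_le hle)
  rw [Nat.card_congr (MonoidHom.ofInjective hinj).toEquiv.symm, Unitary.card_GU hcard]

end CfsgLib.C3Derange
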