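import Cfsg.Agent.C3Derange.UnitaryFrames
import Cfsg.Agent.C3Derange.SympField
import Cfsg.Agent.Classical.Unitary.Order

/-!
Subgroups of type `GU_d(q)` of `Sp₂d(q)`: involutions fix a structure, a count, and the obstruction.
-/

set_option autoImplicit false
set_option linter.style.haveILetI false
set_option linter.unusedSectionVars false

namespace CfsgLib.C3Derange

open Module Matrix CfsgLib.FieldExtMax CfsgLib.Classical.Symp

variable {F : Type*} [Field F] [Fintype F] {d : ℕ}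
  {K : Subalgebra F (Matrix (Fin d ⊕ Fin d) (Fin d ⊕ Fin d) F)}

local notation "V" => (Fin d ⊕ Fin d → F)
local notation "Mat" => Matrix (Fin d ⊕ Fin d) (Fin d ⊕ Fin d) F
local notation "β" => Cfsg.sympForm d F

/-- The data of a unitary structure. -/
structure UStr (K : Subalgebra F Mat) (J : Mat) (δ : F) : Prop where
  mem : J ∈ K
  sq : ∀ v, J *ᵥ (J *ᵥ v) = δ • v
  adj : ∀ u v, β (J *ᵥ u) v = -β u (J *ᵥ v)
  nonsq : ¬ IsSquare δ
  gen : ∀ l ∈ K, ∃ a b : F, l = a • 1 + b • J
  two : (2 : F) ≠ 0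

theorem UStr.ne_zero {J : Mat} {δ : F} (hS : UStr K J δ) : δ ≠ 0 := fun h => hS.nonsq (h ▸ ⟨0, by simp⟩)

theorem UStr.mul_self {J : Mat} {δ : F} (hS : UStr K J δ) : J * J = δ • 1 :=
  Matrix.ext_of_mulVec_single fun i => by
    rw [← Matrix.mulVec_mulVec, hS.sq, Matrix.smul_mulVec, Matrix.one_mulVec]

theorem UStr.indep {J : Mat} {δ : F} (hS : UStr K J δ) (hd : 0 < d) {a b : F}
    (h : a • (1 : Mat) + b • J = 0) : a = 0 ∧ b = 0 := by
  set i : Fin d ⊕ Fin d := .inl ⟨0, hd⟩
  by_cases hb : b = 0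
  · subst hb
    have := congrFun (congrFun h i) i
    exact ⟨by simpa using this, rfl⟩
  · refine absurd ⟨-(a / b), ?_⟩ hS.nonsq
    have hJ : J = (-(a / b)) • (1 : Mat) := by
      have h1 := congrArg (fun M : Mat => b⁻¹ • M) h
      simp only [smul_add, smul_smul, smul_zero, inv_mul_cancel₀ hb, one_smul] at h1
      rw [eq_neg_of_add_eq_zero_right h1, neg_smul, div_eq_inv_mul]
    have h2 := congrFun (congrFun hS.mul_self i) i
    rw [hJ] at h2
    simpa [Matrix.mul_apply, Matrix.one_apply] using h2.symm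

/-- The generator of a quadratic field closed under adjoints but not self-adjoint. -/
theorem exists_uStr (hd : 0 < d) (hodd : Odd (Fintype.card F)) (hK : Cfsg.Geo.IsFieldSubalgebra 2 K)
    (hKf : Cfsg.Geo.IsAdjointClosedFor β K) (hKns : ¬ Cfsg.Geo.IsSelfAdjointFor β K) :
    ∃ (J : Mat) (δ : F), UStr K J δ := by
  classical
  have hF2 : (2 : F) ≠ 0 := Ring.two_ne_zero fun h => by
    have := FiniteField.even_card_of_char_two h
    rw [Nat.odd_iff] at hodd
    omega
  have hch : ringChar F ≠ 2 := fun h => by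
    have := FiniteField.even_card_of_char_two h
    rw [Nat.odd_iff] at hodd
    omega
  haveI : Nonempty (Fin d ⊕ Fin d) := ⟨.inl ⟨0, hd⟩⟩
  obtain ⟨δ, hδ⟩ := FiniteField.exists_nonsquare hch
  letI : Field K := fieldOf hK
  haveI : Fintype K := Fintype.ofFinite K
  have hcard : Fintype.card K = Fintype.card F ^ 2 := by
    rw [← Nat.card_eq_fintype_card, Module.natCard_eq_pow_finrank (K := F), Nat.card_eq_fintype_card,
      hK.finrank_eq]
  have hδ0 : δ ≠ 0 := fun h => hδ (h ▸ ⟨0, by simp⟩)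
  obtain ⟨J, hJ⟩ : IsSquare (algebraMap F K δ) := by
    rw [FiniteField.isSquare_iff (by rwa [← Algebra.ringChar_eq F K]) (by simpa using hδ0), hcard]
    obtain ⟨m, hm⟩ := hodd
    rw [← map_pow, hm, show (2 * m + 1) ^ 2 / 2 = (2 * m) * (m + 1) by
      rw [show (2 * m + 1) ^ 2 = 2 * ((2 * m) * (m + 1)) + 1 by ring]; omega, pow_mul,
      show 2 * m = Fintype.card F - 1 by omega, FiniteField.pow_card_sub_one_eq_one δ hδ0, one_pow, map_one]
  have hJJ : J.1 * J.1 = δ • (1 : Mat) := by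
    have h1 := congrArg Subtype.val hJ
    rw [Subalgebra.coe_algebraMap, Algebra.algebraMap_eq_smul_one] at h1
    exact h1.symm
  have hsq : ∀ v, J.1 *ᵥ (J.1 *ᵥ v) = δ • v := fun v => by
    rw [Matrix.mulVec_mulVec, hJJ, Matrix.smul_mulVec, Matrix.one_mulVec]
  have hcoef : ∀ a b : F, a • (1 : Mat) + b • J.1 = 0 → a = 0 ∧ b = 0 := by
    intro a b h
    by_cases hb : b = 0
    · subst hb
      have := congrFun (congrFun h (.inl ⟨0, hd⟩)) (.inl ⟨0, hd⟩)
      exact ⟨by simpa using this, rfl⟩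
    · refine absurd ⟨-(a / b), ?_⟩ hδ
      have hJm : J.1 = (-(a / b)) • (1 : Mat) := by
        have h1 := congrArg (fun M : Mat => b⁻¹ • M) h
        simp only [smul_add, smul_smul, smul_zero, inv_mul_cancel₀ hb, one_smul] at h1
        rw [eq_neg_of_add_eq_zero_right h1, neg_smul, div_eq_inv_mul]
      have h2 := congrFun (congrFun hJJ (.inl ⟨0, hd⟩)) (.inl ⟨0, hd⟩)
      rw [hJm] at h2
      simpa [Matrix.mul_apply, Matrix.one_apply] using h2.symm
  have hli : LinearIndependent F ![(1 : K), J] :=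
    LinearIndependent.pair_iff.2 fun s t h => hcoef s t (congrArg Subtype.val h)
  have hgen : ∀ l ∈ K, ∃ a b : F, l = a • 1 + b • J.1 := fun l hl => by
    have hspan := hli.span_eq_top_of_card_eq_finrank (by simp [hK.finrank_eq])
    obtain ⟨c, hc⟩ := (Submodule.mem_span_range_iff_exists_fun F).1
      (hspan ▸ Submodule.mem_top : (⟨l, hl⟩ : K) ∈ Submodule.span F (Set.range ![(1 : K), J]))
    exact ⟨c 0, c 1, by simpa [Fin.sum_univ_two] using (congrArg Subtype.val hc).symm⟩
  have hsep : ∀ a b : F, (∀ u v, a * β u v + b * β u (J.1 *ᵥ v) = 0) → a = 0 ∧ b = 0 := by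
    intro a b h
    refine hcoef a b (Matrix.ext_of_mulVec_single fun i => ?_)
    rw [Matrix.zero_mulVec, Matrix.add_mulVec, Matrix.smul_mulVec, Matrix.smul_mulVec, Matrix.one_mulVec]
    refine eq_zero_of_form_eq_zero fun u => ?_
    rw [form_swap, form_add_right, form_smul_right, form_smul_right, h, neg_zero]
  obtain ⟨J', hJ'K, hJ'⟩ := hKf J.1 J.2
  obtain ⟨a, b, rfl⟩ := hgen J' hJ'K
  have hadj : ∀ u v, β (J.1 *ᵥ u) v = a * β u v + b * β u (J.1 *ᵥ v) := fun u v => by
    rw [hJ', Matrix.add_mulVec, Matrix.smul_mulVec, Matrix.smul_mulVec, Matrix.one_mulVec, form_add_right,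
      form_smul_right, form_smul_right]
  obtain ⟨h1, h2⟩ := hsep (a * (1 + b)) (b * b - 1) fun u v => by
    have h := hadj v u
    rw [form_swap (J.1 *ᵥ v) u, form_swap v (J.1 *ᵥ u), hadj u v, form_swap v u] at h
    linear_combination h
  obtain ⟨h3, -⟩ := hsep (a * a + b * b * δ - δ) (2 * a * b) fun u v => by
    have h := hadj (J.1 *ᵥ u) v
    rw [hsq, form_smul_left, hadj u v, hadj u (J.1 *ᵥ v), hsq, form_smul_right] at h
    linear_combination -h
  have ha : a = 0 := mul_self_eq_zero.1 (by linear_combination h3 - δ * h2)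
  subst ha
  refine ⟨J.1, δ, ⟨J.2, hsq, fun u v => ?_, hδ, hgen, hF2⟩⟩
  rcases mul_self_eq_one_iff.1 (sub_eq_zero.1 h2) with rfl | rfl
  · refine absurd (fun l hl u v => ?_) hKns
    obtain ⟨p, p', rfl⟩ := hgen l hl
    simp only [Matrix.add_mulVec, Matrix.smul_mulVec, Matrix.one_mulVec, form_add_left, form_add_right,
      form_smul_left, form_smul_right, hadj]
    ring
  · rw [hadj]; ring

/-- An element semicommuting with the generator normalises the field. -/
theorem UStr.mem_normalizer (hK : Cfsg.Geo.IsFieldSubalgebra 2 K) {J : Mat} {δ : F} (hS : UStr K J δ)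
    {x : GL (Fin d ⊕ Fin d) F} {s : F} (h : (x : Mat) * J = s • (J * (x : Mat))) :
    x ∈ Cfsg.Geo.subalgebraNormalizer K := by
  refine (mem_normalizer_iff hK _).2 fun l hl => ?_
  obtain ⟨a, b, rfl⟩ := hS.gen l hl
  refine ⟨a • 1 + (b * s) • J, K.add_mem (K.smul_mem K.one_mem a) (K.smul_mem hS.mem _), fun y => ?_⟩
  rw [Matrix.mulVec_mulVec, Matrix.mulVec_mulVec, mul_add, add_mul, mul_smul_comm, mul_smul_comm, h,
    smul_mul_assoc, smul_mul_assoc, mul_one, one_mul, smul_smul]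

/-- Odd order elements of the normaliser commute with the generator. -/
theorem UStr.commute_of_mem (hd : 0 < d) (hK : Cfsg.Geo.IsFieldSubalgebra 2 K) {J : Mat} {δ : F}
    (hS : UStr K J δ) {x : GL (Fin d ⊕ Fin d) F} (hx : x ∈ Cfsg.Geo.subalgebraNormalizer K)
    {r : ℕ} (hr : Odd r) (hxr : x ^ r = 1) : (x : Mat) * J = J * (x : Mat) := by
  classical
  haveI : Nonempty (Fin d ⊕ Fin d) := ⟨.inl ⟨0, hd⟩⟩
  obtain ⟨k', hk', he⟩ := (mem_normalizer_iff hK x).1 hx J hS.mem
  obtain ⟨a, b, rfl⟩ := hS.gen k' hk'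
  set L : Mat := a • 1 + b • J with hL
  have hxJ : (x : Mat) * J = L * (x : Mat) := Matrix.ext_of_mulVec_single fun i => by
    rw [← Matrix.mulVec_mulVec, he, Matrix.mulVec_mulVec]
  have hu : IsUnit (x : Mat) := x.isUnit
  have hsq : L * L = δ • 1 := hu.mul_left_injective (by
    show L * L * (x : Mat) = δ • 1 * (x : Mat)
    rw [mul_assoc, ← hxJ, ← mul_assoc, ← hxJ, mul_assoc, hS.mul_self, mul_smul_comm, mul_one, smul_mul_assoc,
      one_mul])
  obtain ⟨h1, h2⟩ := hS.indep hd (a := a * a + b * b * δ - δ) (b := 2 * a * b) (by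
    rw [hL, add_mul, mul_add, mul_add, smul_mul_smul_comm, smul_mul_smul_comm, smul_mul_smul_comm,
      smul_mul_smul_comm, hS.mul_self, one_mul, one_mul, mul_one, smul_smul] at hsq
    linear_combination (norm := module) hsq)
  have ha : a = 0 := by
    rcases mul_eq_zero.1 h2 with h | h
    · exact (mul_eq_zero.1 h).resolve_left hS.two
    · exfalso
      exact hS.nonsq ⟨a, by rw [h] at h1; linear_combination -h1⟩
  subst ha
  have hb : b * b = 1 := mul_right_cancel₀ hS.ne_zero (by linear_combination h1)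
  have hL' : L = b • J := by rw [hL, zero_smul, zero_add]
  rw [hL', smul_mul_assoc] at hxJ
  rcases mul_self_eq_one_iff.1 hb with rfl | rfl
  · rwa [one_smul] at hxJ
  · exfalso
    have hn : ∀ n : ℕ, (x : Mat) ^ n * J = ((-1 : F) ^ n) • (J * (x : Mat) ^ n) := by
      intro n
      induction n with
      | zero => simp
      | succ n ih =>
        rw [pow_succ, mul_assoc, hxJ, mul_smul_comm, ← mul_assoc, ih, smul_mul_assoc, smul_smul, mul_assoc,
          pow_succ (-1 : F)]
        congr 1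
        ring
    have h3 := hn r
    rw [← Units.val_pow_eq_pow_val, hxr, Units.val_one, one_mul, mul_one, hr.neg_one_pow] at h3
    have := hS.indep hd (a := 0) (b := 2) (by linear_combination (norm := module) h3)
    exact hS.two this.2

/-- Semicommuting with some conjugate of the generator gives a fixed point. -/
theorem UStr.fixes_of_semi (hK : Cfsg.Geo.IsFieldSubalgebra 2 K) {J : Mat} {δ : F} (hS : UStr K J δ)
    {J' : Mat} (hsq : ∀ v, J' *ᵥ (J' *ᵥ v) = δ • v) (hadj : ∀ u v, β (J' *ᵥ u) v = -β u (J' *ᵥ v))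
    {x : GL (Fin d ⊕ Fin d) F} {s : F} (h : (x : Mat) * J' = s • (J' * (x : Mat))) :
    ∃ g ∈ Cfsg.spGL d F, g⁻¹ * x * g ∈ Cfsg.Geo.subalgebraNormalizer K := by
  obtain ⟨T, hT, hJT⟩ := exists_normal_form hS.two hS.ne_zero hS.sq hS.adj
  obtain ⟨T', hT', hJT'⟩ := exists_normal_form hS.two hS.ne_zero hsq hadj
  set g := T' * T⁻¹ with hg
  refine ⟨g, mul_mem hT' (inv_mem hT), hS.mem_normalizer hK (s := s) ?_⟩
  have hgJ : (g : Mat) * J = J' * (g : Mat) := by
    have hJ : J = (T : Mat) * block d 0 1 δ 0 * ((T⁻¹ : GL (Fin d ⊕ Fin d) F) : Mat) := by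
      rw [← hJT, mul_assoc, ← Units.val_mul, mul_inv_cancel, Units.val_one, mul_one]
    rw [hg, Units.val_mul, hJ]
    simp only [← mul_assoc]
    rw [mul_assoc (T' : Mat), ← Units.val_mul, inv_mul_cancel, Units.val_one, mul_one, ← hJT']
  have hgi : ((g⁻¹ : GL (Fin d ⊕ Fin d) F) : Mat) * J' = J * ((g⁻¹ : GL (Fin d ⊕ Fin d) F) : Mat) := by
    calc ((g⁻¹ : GL (Fin d ⊕ Fin d) F) : Mat) * J'
        = ((g⁻¹ : GL (Fin d ⊕ Fin d) F) : Mat) * (J' * ((g : Mat) * ((g⁻¹ : GL (Fin d ⊕ Fin d) F) : Mat))) := by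
          rw [← Units.val_mul, mul_inv_cancel, Units.val_one, mul_one]
      _ = ((g⁻¹ : GL (Fin d ⊕ Fin d) F) : Mat) * (g : Mat) * (J * ((g⁻¹ : GL (Fin d ⊕ Fin d) F) : Mat)) := by
          rw [← mul_assoc J', ← hgJ]; simp only [mul_assoc]
      _ = _ := by rw [← Units.val_mul, inv_mul_cancel, Units.val_one, one_mul]
  simp only [Units.val_mul]
  rw [mul_assoc, mul_assoc, hgJ, ← mul_assoc (x : Mat), h, smul_mul_assoc, mul_smul_comm, ← mul_assoc,
    ← mul_assoc, hgi]
  simp only [mul_assoc]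

/-- Every involution of `PSp` fixes a point. -/
theorem UStr.involution_fixes (hK : Cfsg.Geo.IsFieldSubalgebra 2 K) (hd : 0 < d) {J : Mat} {δ : F}
    (hS : UStr K J δ) {x : GL (Fin d ⊕ Fin d) F} (hx : x ∈ Cfsg.spGL d F) {z : F}
    (hz : ((x ^ 2 : GL (Fin d ⊕ Fin d) F) : Mat) = z • 1) :
    ∃ g ∈ Cfsg.spGL d F, g⁻¹ * x * g ∈ Cfsg.Geo.subalgebraNormalizer K := by
  set X : Mat := (x : Mat) with hX
  have hiso : ∀ u u', β (X *ᵥ u) (X *ᵥ u') = β u u' := SympFormStd.mem_spGL.1 hx
  have hsq : ∀ u, X *ᵥ (X *ᵥ u) = z • u := fun u => by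
    rw [Matrix.mulVec_mulVec, hX, ← Units.val_mul, ← pow_two x, hz, Matrix.smul_mulVec, Matrix.one_mulVec]
  have hzz : z * z = 1 := by
    have h := hiso (X *ᵥ stdE ⟨0, hd⟩) (X *ᵥ stdF ⟨0, hd⟩)
    rw [hsq, hsq, hiso, form_smul_left, form_smul_right, form_stdE_stdF, if_pos rfl] at h
    linear_combination h
  -- a conjugate of a model map
  have conjJ : ∀ (T : GL (Fin d ⊕ Fin d) F), T ∈ Cfsg.spGL d F → ∀ a b c : F, a * a + b * c = δ → ∀ s : F,
      X * (T : Mat) * block d a b c (-a) = s • ((T : Mat) * block d a b c (-a) *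
        ((T⁻¹ : GL (Fin d ⊕ Fin d) F) : Mat) * X * (T : Mat)) →
      ∃ g ∈ Cfsg.spGL d F, g⁻¹ * x * g ∈ Cfsg.Geo.subalgebraNormalizer K := by
    intro T hT a b c habc s h
    refine hS.fixes_of_semi hK (J' := (T : Mat) * block d a b c (-a) * ((T⁻¹ : GL (Fin d ⊕ Fin d) F) : Mat))
      (fun v => ?_) (fun u v => ?_) (s := s) ?_
    · rw [← Matrix.mulVec_mulVec, ← Matrix.mulVec_mulVec, ← Matrix.mulVec_mulVec, ← Matrix.mulVec_mulVec,
        Matrix.mulVec_mulVec _ ((T⁻¹ : GL (Fin d ⊕ Fin d) F) : Mat) (T : Mat), ← Units.val_mul, inv_mul_cancel,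
        Units.val_one, Matrix.one_mulVec, block_sq, habc, Matrix.mulVec_smul, Matrix.mulVec_mulVec, ← Units.val_mul,
        mul_inv_cancel, Units.val_one, Matrix.one_mulVec]
    · have hTi := SympFormStd.mem_spGL.1 hT
      have hcancel : ∀ w, (T : Mat) *ᵥ (((T⁻¹ : GL (Fin d ⊕ Fin d) F) : Mat) *ᵥ w) = w := fun w => by
        rw [Matrix.mulVec_mulVec, ← Units.val_mul, mul_inv_cancel, Units.val_one, Matrix.one_mulVec]
      conv_lhs => rw [← hcancel v]
      conv_rhs => rw [← hcancel u]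
      rw [← Matrix.mulVec_mulVec, ← Matrix.mulVec_mulVec, ← Matrix.mulVec_mulVec, ← Matrix.mulVec_mulVec,
        hTi, hTi, block_adj]
    · calc X * ((T : Mat) * block d a b c (-a) * ((T⁻¹ : GL (Fin d ⊕ Fin d) F) : Mat))
          = (X * (T : Mat) * block d a b c (-a)) * ((T⁻¹ : GL (Fin d ⊕ Fin d) F) : Mat) := by
            simp only [mul_assoc]
        _ = _ := by
            rw [h, smul_mul_assoc, mul_assoc _ (T : Mat), ← Units.val_mul, mul_inv_cancel, Units.val_one, mul_one]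
  rcases mul_self_eq_one_iff.1 hzz with rfl | rfl
  · simp only [one_smul] at hsq
    obtain ⟨T, hT, ε, hε⟩ := exists_involution_form hS.two hsq hiso
    refine conjJ T hT 0 1 δ (by ring) 1 ?_
    have hTi : ∀ w, ((T⁻¹ : GL (Fin d ⊕ Fin d) F) : Mat) *ᵥ ((T : Mat) *ᵥ w) = w := fun w => by
      rw [Matrix.mulVec_mulVec, ← Units.val_mul, inv_mul_cancel, Units.val_one, Matrix.one_mulVec]
    rw [one_smul]
    refine mat_ext_std (fun i => ?_) fun i => ?_
    · simp only [← Matrix.mulVec_mulVec, (hε i).1, Matrix.mulVec_smul, hTi, block_stdE, Matrix.mulVec_add,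
        (hε i).2, neg_zero, zero_smul, one_smul, add_zero]
    · simp only [← Matrix.mulVec_mulVec, (hε i).2, Matrix.mulVec_smul, hTi, block_stdF, Matrix.mulVec_add,
        (hε i).1, zero_smul, zero_add, smul_comm δ]
  · obtain ⟨T, hT, hXT⟩ := exists_normal_form hS.two (neg_ne_zero.2 (one_ne_zero : (1 : F) ≠ 0)) hsq (fun u v => by
      rw [← hiso u (X *ᵥ v), hsq, neg_one_smul, form_neg_right, neg_neg])
    obtain ⟨a, b, hab⟩ := FiniteField.exists_root_sum_quadratic (f := Polynomial.X ^ 2)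
      (g := Polynomial.X ^ 2 - Polynomial.C δ) (Polynomial.degree_X_pow 2)
      (Polynomial.degree_X_pow_sub_C (by norm_num) _) (FiniteField.odd_card_of_char_ne_two fun h => hS.two (by
        have := ringChar.Nat.cast_ringChar (R := F)
        rw [h] at this
        exact_mod_cast this))
    simp only [Polynomial.eval_pow, Polynomial.eval_X, Polynomial.eval_sub, Polynomial.eval_C] at hab
    refine conjJ T hT (-a) b b (by linear_combination hab) (-1) ?_
    rw [hXT, mul_assoc _ X (T : Mat), hXT, ← mul_assoc (_ * ((T⁻¹ : GL (Fin d ⊕ Fin d) F) : Mat)),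
      mul_assoc _ ((T⁻¹ : GL (Fin d ⊕ Fin d) F) : Mat) (T : Mat), ← Units.val_mul, inv_mul_cancel, Units.val_one,
      mul_one, mul_assoc (T : Mat), mul_assoc (T : Mat)]
    rw [show block d 0 1 (-1 : F) 0 * block d (-a) b b (- -a) = (-1 : F) • (block d (-a) b b (- -a) * block d 0 1 (-1) 0)
      from mat_ext_std (fun i => by
        simp only [Matrix.smul_mulVec, ← Matrix.mulVec_mulVec, block_stdE, block_stdF, Matrix.mulVec_add,
          Matrix.mulVec_smul]
        module) fun i => by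
        simp only [Matrix.smul_mulVec, ← Matrix.mulVec_mulVec, block_stdE, block_stdF, Matrix.mulVec_add,
          Matrix.mulVec_smul]
        module, mul_smul_comm]

end CfsgLib.C3Derange
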