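import Cfsg.Agent.C3Derange.Common

/-!
Symplectic frames adapted to an anti-self-adjoint map with scalar square, and to an involution.
-/

set_option autoImplicit false

namespace CfsgLib.C3Derange

open Module Matrix CfsgLib.Classical.Symp

variable {F : Type*} [Field F] {d : ℕ}

local notation "V" => (Fin d ⊕ Fin d → F)
local notation "Mat" => Matrix (Fin d ⊕ Fin d) (Fin d ⊕ Fin d) F
local notation "β" => Cfsg.sympForm d F

/-- A family of orthogonal hyperbolic pairs. -/
structure IsPairs {n : ℕ} (v w : Fin n → V) : Prop where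
  vv : ∀ i j, β (v i) (v j) = 0
  ww : ∀ i j, β (w i) (w j) = 0
  vw : ∀ i j, β (v i) (w j) = if i = j then 1 else 0

theorem IsPairs.wv {n : ℕ} {v w : Fin n → V} (h : IsPairs v w) (i j : Fin n) :
    β (w i) (v j) = if i = j then -1 else 0 := by
  rw [form_swap, h.vw]
  by_cases hij : i = j
  · rw [if_pos hij.symm, if_pos hij]
  · rw [if_neg (Ne.symm hij), if_neg hij, neg_zero]

/-- Adapted pairs exist when every invariant non-degenerate subspace contains one. -/
theorem exists_pairs (M : Mat) (c : F) (hadj : ∀ u u', β (M *ᵥ u) u' = c * β u (M *ᵥ u'))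
    (Good : V → V → Prop) (hGood : ∀ v w, Good v w → ∃ a b a' b' : F, M *ᵥ v = a • v + b • w ∧ M *ᵥ w = a' • v + b' • w)
    (hstep : ∀ U : Submodule F V, U ≠ ⊥ → (∀ u ∈ U, M *ᵥ u ∈ U) →
      (∀ u ∈ U, u ≠ 0 → ∃ t ∈ U, β u t = 1) → ∃ v ∈ U, ∃ w ∈ U, β v w = 1 ∧ Good v w) :
    ∃ v w : Fin d → V, IsPairs v w ∧ ∀ i, Good (v i) (w i) := by
  classical
  suffices h : ∀ n ≤ d, ∃ v w : Fin n → V, IsPairs v w ∧ ∀ i, Good (v i) (w i) from h d le_rfl
  intro n
  induction n with
  | zero =>
    intro _
    exact ⟨Fin.elim0, Fin.elim0, ⟨fun i => i.elim0, fun i => i.elim0, fun i => i.elim0⟩, fun i => i.elim0⟩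
  | succ n ih =>
    intro hn
    obtain ⟨v, w, hp, hg⟩ := ih (by omega)
    let U : Submodule F V :=
      { carrier := {u | ∀ i, β u (v i) = 0 ∧ β u (w i) = 0}
        add_mem' := fun {a b} ha hb i => ⟨by rw [form_add_left, (ha i).1, (hb i).1, add_zero],
          by rw [form_add_left, (ha i).2, (hb i).2, add_zero]⟩
        zero_mem' := fun i => ⟨form_zero_left _, form_zero_left _⟩
        smul_mem' := fun a u hu i => ⟨by rw [form_smul_left, (hu i).1, mul_zero],
          by rw [form_smul_left, (hu i).2, mul_zero]⟩ }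
    let π : V → V := fun t => t - ∑ i, (β t (w i) • v i - β t (v i) • w i)
    have hπ : ∀ t, π t ∈ U := by
      intro t j
      have key : ∀ z, β (∑ i, (β t (w i) • v i - β t (v i) • w i)) z =
          ∑ i, (β t (w i) * β (v i) z - β t (v i) * β (w i) z) := fun z => by
        rw [form_swap, form_sum_right, ← Finset.sum_neg_distrib]
        refine Finset.sum_congr rfl fun i _ => ?_
        rw [form_sub_right, form_smul_right, form_smul_right, form_swap z (v i), form_swap z (w i)]
        ring
      constructor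
      · rw [form_sub_left, key, Finset.sum_eq_single j (fun i _ hi => by rw [hp.vv, hp.wv, if_neg hi]; ring)
          (fun hj => absurd (Finset.mem_univ j) hj), hp.vv, hp.wv, if_pos rfl]
        ring
      · rw [form_sub_left, key, Finset.sum_eq_single j (fun i _ hi => by rw [hp.ww, hp.vw, if_neg hi]; ring)
          (fun hj => absurd (Finset.mem_univ j) hj), hp.ww, hp.vw, if_pos rfl]
        ring
    have hne : U ≠ ⊥ := by
      intro h0
      have h1 : Submodule.span F (Set.range (Sum.elim v w)) = ⊤ := by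
        refine Submodule.eq_top_iff'.2 fun t => ?_
        have h2 := hπ t
        rw [h0, Submodule.mem_bot, sub_eq_zero] at h2
        rw [h2]
        exact Submodule.sum_mem _ fun i _ => Submodule.sub_mem _
          (Submodule.smul_mem _ _ (Submodule.subset_span ⟨Sum.inl i, rfl⟩))
          (Submodule.smul_mem _ _ (Submodule.subset_span ⟨Sum.inr i, rfl⟩))
      have h3 := finrank_range_le_card (R := F) (b := Sum.elim v w)
      rw [Set.finrank, h1, finrank_top, Module.finrank_fintype_fun_eq_card, Fintype.card_sum, Fintype.card_sum,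
        Fintype.card_fin, Fintype.card_fin] at h3
      omega
    have hinv : ∀ u ∈ U, M *ᵥ u ∈ U := by
      intro u hu i
      obtain ⟨a, b, a', b', hv, hw⟩ := hGood _ _ (hg i)
      constructor <;>
        simp [hadj, hv, hw, form_add_right, form_smul_right, (hu i).1, (hu i).2]
    have hsep : ∀ u ∈ U, u ≠ 0 → ∃ t ∈ U, β u t = 1 := by
      intro u hu hu0
      obtain ⟨t, ht⟩ := exists_form_eq_one hu0
      refine ⟨π t, hπ t, ?_⟩
      rw [form_sub_right, form_sum_right, Finset.sum_eq_zero fun i _ => ?_, sub_zero, ht]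
      rw [form_sub_right, form_smul_right, form_smul_right, (hu i).1, (hu i).2, mul_zero, mul_zero, sub_zero]
    obtain ⟨v', hv', w', hw', hvw, hgood⟩ := hstep U hne hinv hsep
    refine ⟨Fin.snoc v v', Fin.snoc w w', ⟨?_, ?_, ?_⟩, ?_⟩
    · intro i j
      induction i using Fin.lastCases <;> induction j using Fin.lastCases <;>
        simp [form_self, hp.vv, (hv' _).1, form_swap (v _) v']
    · intro i j
      induction i using Fin.lastCases <;> induction j using Fin.lastCases <;>
        simp [form_self, hp.ww, (hw' _).2, form_swap (w _) w']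
    · intro i j
      induction i using Fin.lastCases <;> induction j using Fin.lastCases <;>
        simp [hvw, hp.vw, (hv' _).2, form_swap (v _) w', (hw' _).1, Fin.castSucc_ne_last,
          (Fin.castSucc_ne_last _).symm]
    · intro i
      induction i using Fin.lastCases <;> simp [hgood, hg]

/-- The element of `Sp` given by a full family of pairs. -/
theorem exists_mem_of_pairs [Fintype F] {v w : Fin d → V} (hp : IsPairs v w) :
    ∃ T ∈ Cfsg.spGL d F, ∀ i, (T : Mat) *ᵥ stdE i = v i ∧ (T : Mat) *ᵥ stdF i = w i := by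
  classical
  let P : Mat := Matrix.of fun a b => Sum.elim w v b a
  have hPE : ∀ i, P *ᵥ stdE i = v i := fun i => by funext a; simp [P, stdE, Matrix.mulVec_single]
  have hPF : ∀ i, P *ᵥ stdF i = w i := fun i => by funext a; simp [P, stdF, Matrix.mulVec_single]
  have hpres : ∀ x y, β (P *ᵥ x) (P *ᵥ y) = β x y := by
    have hbil : (Classical.Semisimple.SympModel.formB d F).compl₁₂ (Matrix.toLin' P) (Matrix.toLin' P) =
        Classical.Semisimple.SympModel.formB d F := by
      refine LinearMap.ext_basis (Pi.basisFun F _) (Pi.basisFun F _) fun i j => ?_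
      simp only [Pi.basisFun_apply, LinearMap.compl₁₂_apply, Matrix.toLin'_apply,
        Classical.Semisimple.SympModel.formB_apply]
      rcases i with i | i <;> rcases j with j | j
      · exact (by rw [show (Pi.single (Sum.inl i) 1 : V) = stdF i from rfl,
          show (Pi.single (Sum.inl j) 1 : V) = stdF j from rfl, hPF, hPF, hp.ww, form_stdF_stdF])
      · exact (by rw [show (Pi.single (Sum.inl i) 1 : V) = stdF i from rfl,
          show (Pi.single (Sum.inr j) 1 : V) = stdE j from rfl, hPF, hPE, hp.wv, form_stdF_stdE])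
      · exact (by rw [show (Pi.single (Sum.inr i) 1 : V) = stdE i from rfl,
          show (Pi.single (Sum.inl j) 1 : V) = stdF j from rfl, hPF, hPE, hp.vw, form_stdE_stdF])
      · exact (by rw [show (Pi.single (Sum.inr i) 1 : V) = stdE i from rfl,
          show (Pi.single (Sum.inr j) 1 : V) = stdE j from rfl, hPE, hPE, hp.vv, form_stdE_stdE])
    intro x y
    exact LinearMap.congr_fun (LinearMap.congr_fun hbil x) y
  refine ⟨spHom d F ⟨P, (mem_symplecticGroup_iff_form P).2 hpres⟩, spHom_mem _, fun i => ⟨hPE i, hPF i⟩⟩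

/-- The block matrix with scalar blocks. -/
def block (d : ℕ) {F : Type*} [Field F] (a b c e : F) : Matrix (Fin d ⊕ Fin d) (Fin d ⊕ Fin d) F :=
  Matrix.fromBlocks (a • 1) (b • 1) (c • 1) (e • 1)

theorem block_stdE (a b c e : F) (i : Fin d) : block d a b c e *ᵥ stdE i = b • stdF i + e • stdE i := by
  funext j
  rcases j with j | j <;> simp [block, stdE, stdF, Matrix.one_apply, Pi.single_apply]

theorem block_stdF (a b c e : F) (i : Fin d) : block d a b c e *ᵥ stdF i = a • stdF i + c • stdE i := by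
  funext j
  rcases j with j | j <;> simp [block, stdE, stdF, Matrix.one_apply, Pi.single_apply]

theorem block_mulVec (a b c e : F) (y : V) :
    block d a b c e *ᵥ y = Sum.elim (fun i => a * y (Sum.inl i) + b * y (Sum.inr i))
      (fun i => c * y (Sum.inl i) + e * y (Sum.inr i)) := by
  funext j
  rcases j with j | j <;>
    simp [block, Matrix.mulVec, dotProduct, Fintype.sum_sum_type, Matrix.one_apply]

theorem block_adj (a b c : F) (u v : V) :
    β (block d a b c (-a) *ᵥ u) v = -β u (block d a b c (-a) *ᵥ v) := by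
  rw [form_apply, form_apply, block_mulVec, block_mulVec, ← Finset.sum_neg_distrib]
  refine Finset.sum_congr rfl fun i _ => ?_
  simp only [Sum.elim_inl, Sum.elim_inr]
  ring

theorem block_sq (a b c : F) (v : V) :
    block d a b c (-a) *ᵥ (block d a b c (-a) *ᵥ v) = (a * a + b * c) • v := by
  rw [block_mulVec, block_mulVec]
  funext j
  rcases j with j | j <;> simp <;> ring

/-- An element of `GL` is determined on the standard vectors. -/
theorem mat_ext_std {A B : Mat} (hE : ∀ i, A *ᵥ stdE i = B *ᵥ stdE i) (hF : ∀ i, A *ᵥ stdF i = B *ᵥ stdF i) :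
    A = B :=
  Matrix.ext_of_mulVec_single fun i => by rcases i with i | i; exacts [hF i, hE i]

/-- Normal form of an anti-self-adjoint map with non-zero scalar square. -/
theorem exists_normal_form [Fintype F] (h2 : (2 : F) ≠ 0) {M : Mat} {δ : F} (hδ : δ ≠ 0)
    (hsq : ∀ v, M *ᵥ (M *ᵥ v) = δ • v) (hadj : ∀ u v, β (M *ᵥ u) v = -β u (M *ᵥ v)) :
    ∃ T ∈ Cfsg.spGL d F, M * (T : Mat) = (T : Mat) * block d 0 1 δ 0 := by
  classical
  have hodd : Fintype.card F % 2 = 1 := FiniteField.odd_card_of_char_ne_two fun h => h2 (by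
    have := ringChar.Nat.cast_ringChar (R := F)
    rw [h] at this
    exact_mod_cast this)
  obtain ⟨v, w, hp, hg⟩ := exists_pairs M (-1) (fun u u' => by rw [hadj]; ring) (fun v w => w = M *ᵥ v)
    (fun v w h => ⟨0, 1, δ, 0, by rw [h]; simp, by rw [h, hsq]; simp⟩) (by
    intro U hne hinv hsep
    obtain ⟨v, hv, hv0⟩ : ∃ v ∈ U, β v (M *ᵥ v) ≠ 0 := by
      by_contra! hcon
      obtain ⟨u, hu, hu0⟩ := Submodule.exists_mem_ne_zero_of_ne_bot hne
      obtain ⟨t, ht, hut⟩ := hsep u hu hu0
      -- write `t` as an image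
      have hs : δ⁻¹ • (M *ᵥ t) ∈ U := U.smul_mem _ (hinv t ht)
      have hts : t = M *ᵥ (δ⁻¹ • (M *ᵥ t)) := by
        rw [Matrix.mulVec_smul, hsq, smul_smul, inv_mul_cancel₀ hδ, one_smul]
      set s := δ⁻¹ • (M *ᵥ t) with hs'
      have h := hcon (u + s) (U.add_mem hu hs)
      rw [Matrix.mulVec_add, form_add_left, form_add_right, form_add_right, hcon u hu, hcon s hs, ← hts, hut,
        form_swap s (M *ᵥ u), hadj, ← hts, hut] at h
      exact h2 (by linear_combination h)
    obtain ⟨a, b, hab⟩ := FiniteField.exists_root_sum_quadratic (f := Polynomial.X ^ 2)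
      (g := Polynomial.C (-δ) * Polynomial.X ^ 2 + Polynomial.C (-(β v (M *ᵥ v))⁻¹)) (Polynomial.degree_X_pow 2)
      (by rw [Polynomial.degree_add_C (by rw [Polynomial.degree_C_mul_X_pow 2 (neg_ne_zero.2 hδ)]; norm_num),
        Polynomial.degree_C_mul_X_pow 2 (neg_ne_zero.2 hδ)]; rfl) hodd
    simp only [Polynomial.eval_pow, Polynomial.eval_X, Polynomial.eval_add, Polynomial.eval_mul,
      Polynomial.eval_C] at hab
    refine ⟨a • v + b • (M *ᵥ v), U.add_mem (U.smul_mem _ hv) (U.smul_mem _ (hinv v hv)),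
      M *ᵥ (a • v + b • (M *ᵥ v)), hinv _ (U.add_mem (U.smul_mem _ hv) (U.smul_mem _ (hinv v hv))), ?_, rfl⟩
    simp only [Matrix.mulVec_add, Matrix.mulVec_smul, hsq, form_add_left, form_add_right, form_smul_left,
      form_smul_right, form_self, form_swap (M *ᵥ v) v]
    field_simp at hab
    linear_combination hab)
  obtain ⟨T, hT, hTv⟩ := exists_mem_of_pairs hp
  refine ⟨T, hT, mat_ext_std (fun i => ?_) fun i => ?_⟩
  · rw [← Matrix.mulVec_mulVec, ← Matrix.mulVec_mulVec, (hTv i).1, block_stdE, one_smul, zero_smul, add_zero,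
      (hTv i).2, hg i]
  · rw [← Matrix.mulVec_mulVec, ← Matrix.mulVec_mulVec, (hTv i).2, block_stdF, zero_smul, zero_add,
      Matrix.mulVec_smul, (hTv i).1, hg i, hsq]

/-- Normal form of an involution of `Sp`. -/
theorem exists_involution_form [Fintype F] (h2 : (2 : F) ≠ 0) {X : Mat} (hsq : ∀ v, X *ᵥ (X *ᵥ v) = v)
    (hiso : ∀ u v, β (X *ᵥ u) (X *ᵥ v) = β u v) :
    ∃ T ∈ Cfsg.spGL d F, ∃ ε : Fin d → F,
      ∀ i, X *ᵥ ((T : Mat) *ᵥ stdE i) = ε i • ((T : Mat) *ᵥ stdE i) ∧
        X *ᵥ ((T : Mat) *ᵥ stdF i) = ε i • ((T : Mat) *ᵥ stdF i) := by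
  have hadj : ∀ u u', β (X *ᵥ u) u' = 1 * β u (X *ᵥ u') := fun u u' => by rw [one_mul, ← hiso u, hsq]
  obtain ⟨v, w, hp, hg⟩ := exists_pairs X 1 hadj (fun v w => ∃ ε : F, X *ᵥ v = ε • v ∧ X *ᵥ w = ε • w)
    (fun v w ⟨ε, h1, h3⟩ => ⟨ε, 0, 0, ε, by rw [h1]; simp, by rw [h3]; simp⟩) (by
    intro U hne hinv hsep
    obtain ⟨u, hu, hu0⟩ := Submodule.exists_mem_ne_zero_of_ne_bot hne
    obtain ⟨ε, hε, hne'⟩ : ∃ ε : F, ε * ε = 1 ∧ u + ε • (X *ᵥ u) ≠ 0 := by
      by_contra! h
      have h1 := h 1 (one_mul 1)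
      have h3 := h (-1) (by ring)
      refine hu0 ((smul_eq_zero.1 (show (2 : F) • u = 0 from ?_)).resolve_left h2)
      linear_combination (norm := module) h1 + h3
    set v := u + ε • (X *ᵥ u) with hv
    have hvU : v ∈ U := U.add_mem hu (U.smul_mem _ (hinv u hu))
    have hXv : X *ᵥ v = ε • v := by
      rw [hv, Matrix.mulVec_add, Matrix.mulVec_smul, hsq, smul_add, smul_smul, hε, one_smul, add_comm]
    obtain ⟨t, ht, hvt⟩ := hsep v hvU hne'
    refine ⟨v, hvU, (2 : F)⁻¹ • (t + ε • (X *ᵥ t)), U.smul_mem _ (U.add_mem ht (U.smul_mem _ (hinv t ht))), ?_,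
      ε, hXv, ?_⟩
    · rw [form_smul_right, form_add_right, hvt, form_smul_right, ← one_mul (β v (X *ᵥ t)), ← hadj, hXv,
        form_smul_left, hvt, mul_one, hε]
      field_simp
      ring
    · rw [Matrix.mulVec_smul, Matrix.mulVec_add, Matrix.mulVec_smul, hsq]
      match_scalars
      · linear_combination -(2 : F)⁻¹ * hε
      · ring)
  obtain ⟨T, hT, hTv⟩ := exists_mem_of_pairs hp
  choose ε hε using hg
  exact ⟨T, hT, ε, fun i => by rw [(hTv i).1, (hTv i).2]; exact hε i⟩

end CfsgLib.C3Derange
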