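import Cfsg.Agent.C3Derange.UnitaryField

/-!
Elements of odd prime order of `Sp₂d(q)` commuting with no unitary structure.
-/

set_option autoImplicit false
set_option linter.unusedSectionVars false

namespace CfsgLib.C3Derange

open Module Polynomial CfsgLib.Classical.Semisimple CfsgLib.Classical.Semisimple.AltIsometry

variable {F : Type*} [Field F] [Fintype F] {d : ℕ}

local notation "Vd" => (Fin d ⊕ Fin d → F)

/-- A map whose square is a non-square scalar preserves only even dimensional subspaces. -/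
theorem even_finrank_invariant {f : Module.End F Vd} {δ : F} (hδ : ¬ IsSquare δ) (hsq : ∀ v, f (f v) = δ • v)
    {U : Submodule F Vd} (hU : ∀ u ∈ U, f u ∈ U) : Even (finrank F U) := by
  have hδ0 : δ ≠ 0 := fun h => hδ (h ▸ ⟨0, by simp⟩)
  rcases Nat.even_or_odd (finrank F U) with h | ⟨j, hj⟩
  · exact h
  exfalso
  set g : Module.End F U := f.restrict hU with hg
  have h1 : g * g = δ • 1 := LinearMap.ext fun u => Subtype.ext (hsq u)
  have h2 := congrArg LinearMap.det h1
  rw [map_mul, LinearMap.det_smul, map_one, mul_one, hj, pow_succ] at h2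
  exact hδ ⟨LinearMap.det g / δ ^ j, by field_simp; linear_combination -h2⟩

theorem pow_half_eq_one {δ : F} (hδ : δ ≠ 0) (hodd : Odd (Fintype.card F)) {j : ℕ} (hj : Even j) :
    δ ^ ((Fintype.card F ^ j - 1) / 2) = 1 := by
  obtain ⟨m, hm⟩ := hodd
  obtain ⟨i, rfl⟩ := hj
  obtain ⟨c, hc⟩ : Fintype.card F ^ 2 - 1 ∣ Fintype.card F ^ (i + i) - 1 := by
    rw [show i + i = 2 * i by ring, pow_mul]
    simpa using Nat.sub_dvd_pow_sub_pow (Fintype.card F ^ 2) 1 i
  have h1 : Fintype.card F ^ 2 - 1 = 2 * ((2 * m) * (m + 1)) := by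
    rw [hm, show (2 * m + 1) ^ 2 = 2 * ((2 * m) * (m + 1)) + 1 by ring, Nat.add_sub_cancel]
  rw [hc, h1, mul_assoc 2, Nat.mul_div_cancel_left _ two_pos, mul_assoc, pow_mul,
    show 2 * m = Fintype.card F - 1 by omega, FiniteField.pow_card_sub_one_eq_one δ hδ, one_pow]

variable {f : Module.End F (Fin d ⊕ Fin d → F)} {r : ℕ} [hr : Fact r.Prime] {δ : F}
  {J : Module.End F (Fin d ⊕ Fin d → F)}

/-- `f⁻¹` is the middle Frobenius power of `f`. -/
theorem aeval_inv_eq_pow (hs : Setting (SympModel.formB d F) f r) {j : ℕ}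
    (hj : orderOf (Fintype.card F : ZMod r) = j + j) (P : F[X]) :
    aeval (f ^ (r - 1)) P = (aeval f P) ^ (Fintype.card F ^ j) := by
  have hz : (Fintype.card F : ZMod r) ^ j = -1 := by
    have h2 : ((Fintype.card F : ZMod r) ^ j) ^ 2 = 1 := by
      rw [← pow_mul, show j * 2 = orderOf (Fintype.card F : ZMod r) by omega, pow_orderOf_eq_one]
    refine (sq_eq_one_iff.1 h2).resolve_left fun h => ?_
    have := orderOf_dvd_of_pow_eq_one h
    have hpos := hs.order_pos
    have := Nat.le_of_dvd (by omega) this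
    omega
  have hmod : Fintype.card F ^ j ≡ r - 1 [MOD r] := by
    rw [← ZMod.natCast_eq_natCast_iff, Nat.cast_pow, hz, Nat.cast_sub hr.out.one_le, ZMod.natCast_self]
    simp
  have hg : f ^ (r - 1) = f ^ (Fintype.card F ^ j) := by
    rw [pow_eq_pow_mod (r - 1) hs.pow, pow_eq_pow_mod (Fintype.card F ^ j) hs.pow, hmod]
  rw [hg]
  clear hz hmod hg hj
  induction j generalizing P with
  | zero => simp
  | succ j ih => rw [pow_succ, pow_mul, pow_mul, ← ih, ← map_pow, ← FiniteField.expand_card, expand_aeval]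

theorem aeval_commute (hJ : f * J = J * f) (P : F[X]) (v : Vd) : aeval f P (J v) = J (aeval f P v) := by
  have h : Commute J (aeval f P) :=
    Algebra.commute_of_mem_adjoin_singleton_of_commute (aeval_mem_adjoin_singleton F f) hJ.symm
  rw [← Module.End.mul_apply, ← h.eq]; rfl

/-- No odd prime order isometry with moved space of these types commutes with the generator. -/
theorem no_commute (hs : Setting (SympModel.formB d F) f r) (h2 : (2 : F) ≠ 0) (hodd : Odd (Fintype.card F))
    (hδ : ¬ IsSquare δ) (hsq : ∀ v, J (J v) = δ • v)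
    (hadj : ∀ u v, SympModel.formB d F (J u) v = -SympModel.formB d F u (J v)) (hJ : f * J = J * f)
    (hdim : (Odd (orderOf (Fintype.card F : ZMod r)) ∧
        finrank F (moved f) = 2 * orderOf (Fintype.card F : ZMod r)) ∨
      (4 ∣ orderOf (Fintype.card F : ZMod r) ∧ finrank F (moved f) = orderOf (Fintype.card F : ZMod r))) :
    False := by
  classical
  have hepos := hs.order_pos
  set e := orderOf (Fintype.card F : ZMod r) with he
  have hδ0 : δ ≠ 0 := fun h => hδ (h ▸ ⟨0, by simp⟩)
  have hJf : ∀ v, f (J v) = J (f v) := fun v => LinearMap.congr_fun hJ v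
  have hJM : ∀ v ∈ moved f, J v ∈ moved f := by
    rintro _ ⟨a, rfl⟩
    exact ⟨J a, by simp [hJf]⟩
  have hne : moved f ≠ ⊥ := fun h => by
    rw [h, finrank_bot] at hdim
    omega
  obtain ⟨U, P, hUle, hUf, hUd, hP, hPc, hPU⟩ := hs.exists_irred moved_map_le le_rfl hne
  have hUne : U ≠ ⊥ := fun h => by rw [h, finrank_bot] at hUd; omega
  haveI := Fact.mk hP
  obtain ⟨u₀, hu₀, hu₀0⟩ := Submodule.exists_mem_ne_zero_of_ne_bot hUne
  have hdvd : ∀ R : F[X], aeval f R u₀ = 0 → P ∣ R := fun R hR => by
    by_contra hn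
    obtain ⟨a, b, hab⟩ := hP.coprime_iff_not_dvd.2 hn
    have h := congrArg (fun S => aeval f S u₀) hab
    simp only [map_add, map_mul, map_one, LinearMap.add_apply, Module.End.mul_apply, hPU u₀ hu₀, hR, map_zero,
      add_zero, Module.End.one_apply] at h
    exact hu₀0 h.symm
  have hPdeg : P.natDegree = e := natDegree_of_dvd_cyclotomic hs.ne hP hPc
  haveI : FiniteDimensional F (AdjoinRoot P) := (AdjoinRoot.powerBasis hP.ne_zero).finite
  have hE : finrank F (AdjoinRoot P) = e := by
    rw [(AdjoinRoot.powerBasis hP.ne_zero).finrank, AdjoinRoot.powerBasis_dim, hPdeg]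
  haveI : Finite (AdjoinRoot P) := Module.finite_of_finite F
  rcases hdim with ⟨heodd, hM⟩ | ⟨h4, hM⟩
  · -- `e` odd
    set U' := U.map J with hU'
    have hU'le : U' ≤ moved f := by
      rintro _ ⟨u, hu, rfl⟩
      exact hJM u (hUle hu)
    have hU'f : U'.map f ≤ U' := by
      rintro _ ⟨_, ⟨u, hu, rfl⟩, rfl⟩
      exact ⟨f u, hUf ⟨u, hu, rfl⟩, (hJf u).symm⟩
    have hJinj : Function.Injective J := fun a b hab => by
      have := congrArg J hab
      rw [hsq, hsq] at this
      exact smul_right_injective _ hδ0 this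
    have hU'd : finrank F U' = e := by
      exact (Submodule.equivMapOfInjective J hJinj U).finrank_eq.symm.trans hUd
    rcases hs.minimal hUle hUd (inf_map_le hUf hU'f) inf_le_left with hbot | heq
    swap
    · have hle : U ≤ U' := inf_eq_left.1 heq
      have hUU' : U = U' := Submodule.eq_of_le_of_finrank_eq hle (by rw [hUd, hU'd])
      have hev := even_finrank_invariant hδ hsq (U := U) fun u hu => hUU'.symm ▸ ⟨u, hu, rfl⟩
      rw [hUd] at hev
      exact Nat.not_even_iff_odd.2 heodd hev
    have hsup : U ⊔ U' = moved f := Submodule.eq_of_le_of_finrank_eq (sup_le hUle hU'le) (by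
      rw [finrank_add_of_disjoint (disjoint_iff.2 hbot), hUd, hU'd, hM]; ring)
    have hPall : ∀ v ∈ moved f, aeval f P v = 0 := by
      intro v hv
      rw [← hsup] at hv
      obtain ⟨a, ha, b, ⟨c, hc, rfl⟩, rfl⟩ := Submodule.mem_sup.1 hv
      rw [map_add, hPU a ha, aeval_commute hJ, hPU c hc, map_zero, add_zero]
    have hinvM : ∀ v ∈ moved f, aeval (f ^ (r - 1)) P v = 0 := by
      intro v hv
      refine hs.nondeg_moved _ (Classical.Semisimple.aeval_mem ?_ P hv) fun u hu => ?_
      · refine map_le_of_forall_mem fun y hy => ?_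
        have h := Classical.Semisimple.aeval_mem (moved_map_le (f := f)) (X ^ (r - 1)) hy
        simpa using h
      · rw [comm_zero hs.alt]
        rw [← hs.aeval_adjoint, hPall u hu, map_zero, LinearMap.zero_apply]
    have h1 : P ∣ P.comp (X ^ (r - 1)) := hdvd _ (by
      rw [aeval_comp, map_pow, aeval_X]; exact hinvM u₀ (hUle hu₀))
    have h3 : P ∣ X ^ r - 1 := hdvd _ (by simp [hs.pow])
    set l := AdjoinRoot.root P with hl
    have hlr : l ^ r = 1 := by
      have h := AdjoinRoot.mk_eq_zero.2 h3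
      rw [map_sub, map_pow, AdjoinRoot.mk_X, map_one, sub_eq_zero] at h
      exact h
    have hroot : aeval (l ^ (r - 1)) P = 0 := by
      have h := AdjoinRoot.mk_eq_zero.2 h1
      rw [← AdjoinRoot.aeval_eq, aeval_comp, map_pow, aeval_X] at h
      exact h
    let φ : AdjoinRoot P →ₐ[F] AdjoinRoot P := AdjoinRoot.liftAlgHom P (Algebra.ofId F _) (l ^ (r - 1)) hroot
    let σ : AdjoinRoot P ≃ₐ[F] AdjoinRoot P := AlgEquiv.ofBijective φ (Algebra.IsAlgebraic.algHom_bijective φ)
    have hφl : φ l = l ^ (r - 1) := AdjoinRoot.liftAlgHom_root _ _ _ _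
    have hσ2 : σ ^ 2 = 1 := by
      refine AlgEquiv.ext fun y => ?_
      suffices φ.comp φ = AlgHom.id F _ from AlgHom.congr_fun this y
      refine AdjoinRoot.algHom_ext ?_
      show φ (φ l) = l
      rw [hφl, map_pow, hφl, ← pow_mul]
      obtain ⟨m, hm⟩ : ∃ m, r = m + 2 := ⟨r - 2, by have := hr.out.two_le; omega⟩
      rw [show (r - 1) * (r - 1) = r * m + 1 by
        rw [show r - 1 = m + 1 by omega, hm]; ring, pow_succ, pow_mul, hlr, one_pow, one_mul]
    haveI : IsGalois F (AdjoinRoot P) := GaloisField.instIsGaloisOfFinite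
    have hσe : σ ^ e = 1 := by
      have := pow_card_eq_one' (G := AdjoinRoot P ≃ₐ[F] AdjoinRoot P) (x := σ)
      rwa [IsGalois.card_aut_eq_finrank, hE] at this
    have hσ1 : σ = 1 := by
      have h := pow_gcd_eq_one.2 ⟨hσ2, hσe⟩
      rwa [(Nat.coprime_two_left.2 heodd), pow_one] at h
    have hfix : l ^ (r - 1) = l := by
      rw [← hφl]; exact AlgEquiv.congr_fun hσ1 l
    have hl2 : l ^ 2 = 1 := by
      conv_rhs => rw [← hlr, show r = r - 1 + 1 from (Nat.sub_add_cancel hr.out.one_le).symm, pow_succ, hfix]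
      ring
    have hl1 : l = 1 := by
      obtain ⟨m, hm⟩ := hr.out.odd_of_ne_two hs.odd
      rwa [hm, pow_succ, pow_mul, hl2, one_pow, one_mul] at hlr
    have h4 : P ∣ X - 1 := AdjoinRoot.mk_eq_zero.1 (by
      rw [map_sub, AdjoinRoot.mk_X, map_one, sub_eq_zero]; exact hl1)
    obtain ⟨c, hc⟩ := h4
    have h5 : f u₀ = u₀ := by
      have h := congrArg (fun R => aeval f R u₀) hc
      rw [mul_comm P] at h
      simpa [hPU u₀ hu₀, sub_eq_zero] using h
    exact hu₀0 (Submodule.disjoint_def.1 hs.isCompl.disjoint u₀ (mem_fixed.2 h5) (hUle hu₀))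
  · -- `4 ∣ e`
    have hUM : U = moved f := Submodule.eq_of_le_of_finrank_eq hUle (by rw [hUd, hM])
    obtain ⟨j, hj, hje⟩ : ∃ j, e = j + j ∧ Even j := by
      obtain ⟨i, hi⟩ := h4
      exact ⟨2 * i, by omega, even_two_mul i⟩
    haveI : Fintype (AdjoinRoot P) := Fintype.ofFinite _
    have hch : ringChar (AdjoinRoot P) ≠ 2 := by
      rw [← Algebra.ringChar_eq F (AdjoinRoot P)]
      intro h
      exact h2 (by
        have := ringChar.Nat.cast_ringChar (R := F)
        rw [h] at this
        exact_mod_cast this)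
    obtain ⟨l, hl⟩ : IsSquare (algebraMap F (AdjoinRoot P) δ) := by
      rw [FiniteField.isSquare_iff hch (by simpa using hδ0)]
      have hcardE : Fintype.card (AdjoinRoot P) = Fintype.card F ^ e := by
        rw [← Nat.card_eq_fintype_card, Module.natCard_eq_pow_finrank (K := F), Nat.card_eq_fintype_card, hE]
      have h := pow_half_eq_one hδ0 hodd (j := e) ⟨j, hj⟩
      have hod : Fintype.card F ^ e % 2 = 1 := Nat.odd_iff.1 hodd.pow
      rw [hcardE, ← map_pow, show Fintype.card F ^ e / 2 = (Fintype.card F ^ e - 1) / 2 by omega, h, map_one]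
    obtain ⟨Q, rfl⟩ := AdjoinRoot.mk_surjective l
    set g := aeval f Q with hg
    have hQ : P ∣ Q * Q - C δ := AdjoinRoot.mk_eq_zero.1 (by
      rw [map_sub, map_mul, AdjoinRoot.mk_C, ← hl, sub_eq_zero]; rfl)
    have hg2 : ∀ v ∈ moved f, g (g v) = δ • v := by
      intro v hv
      obtain ⟨c, hc⟩ := hQ
      have h := congrArg (fun R => aeval f R v) hc
      rw [mul_comm P] at h
      simpa [hPU v (hUM ▸ hv), hg, sub_eq_zero, Module.algebraMap_end_apply] using h
    have hgM : ∀ v ∈ moved f, g v ∈ moved f := fun v hv => Classical.Semisimple.aeval_mem moved_map_le Q hv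
    have hgJ : ∀ v, g (J v) = J (g v) := aeval_commute hJ Q
    have hgf : ∀ v, g (f v) = f (g v) := fun v => by
      rw [← Module.End.mul_apply, ← Module.End.mul_apply, hg, ← aeval_X (R := F) f]
      simp only [aeval_X]
      rw [show aeval f Q * f = aeval f (Q * X) by simp, mul_comm Q, map_mul, aeval_X]
    -- `J = ±g` on the moved space
    set W := moved f ⊓ LinearMap.ker (J - g) with hW
    have hWf : W.map f ≤ W := by
      refine map_le_of_forall_mem fun y hy => ⟨moved_map_le ⟨y, hy.1, rfl⟩, ?_⟩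
      have h := hy.2
      simp only [SetLike.mem_coe, LinearMap.mem_ker, LinearMap.sub_apply, sub_eq_zero] at h ⊢
      rw [← hJf, hgf, h]
    have hε : ∃ ε : F, ε * ε = 1 ∧ ∀ v ∈ moved f, J v = ε • g v := by
      rcases hs.minimal le_rfl hM hWf inf_le_left with h | h
      · refine ⟨-1, by ring, fun v hv => ?_⟩
        have hmem : J v + g v ∈ W := by
          refine ⟨(moved f).add_mem (hJM v hv) (hgM v hv), ?_⟩
          simp only [SetLike.mem_coe, LinearMap.mem_ker, LinearMap.sub_apply, map_add, hsq, hgJ, hg2 v hv]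
          abel
        rw [h, Submodule.mem_bot] at hmem
        rw [neg_one_smul]
        exact eq_neg_of_add_eq_zero_left hmem
      · refine ⟨1, one_mul 1, fun v hv => ?_⟩
        have := (h.symm ▸ hv : v ∈ W).2
        simp only [SetLike.mem_coe, LinearMap.mem_ker, LinearMap.sub_apply, sub_eq_zero] at this
        rw [this, one_smul]
    obtain ⟨ε, hε1, hεJ⟩ := hε
    have hself : ∀ u ∈ moved f, ∀ v ∈ moved f, SympModel.formB d F (g u) v = SympModel.formB d F u (g v) := by
      intro u _ v hv
      rw [hg, hs.aeval_adjoint, aeval_inv_eq_pow hs hj]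
      congr 1
      have hodd' := Nat.odd_iff.1 (hodd.pow (n := j))
      have key : ∀ n : ℕ, (g ^ (2 * n + 1)) v = δ ^ n • g v := by
        intro n
        induction n with
        | zero => simp
        | succ n ih =>
          rw [show 2 * (n + 1) + 1 = 2 + (2 * n + 1) by ring, pow_add, Module.End.mul_apply, ih, map_smul,
            pow_two, Module.End.mul_apply, hg2 _ (hgM v hv), smul_smul, ← pow_succ]
      have := key ((Fintype.card F ^ j - 1) / 2)
      rw [pow_half_eq_one hδ0 hodd hje, one_smul,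
        show 2 * ((Fintype.card F ^ j - 1) / 2) + 1 = Fintype.card F ^ j by omega] at this
      exact this
    obtain ⟨v, hv, hv0⟩ := Submodule.exists_mem_ne_zero_of_ne_bot hne
    have hgv : g v = 0 := hs.nondeg_moved _ (hgM v hv) fun u hu => by
      have h := hadj v u
      rw [hεJ v hv, hεJ u hu, map_smul, LinearMap.smul_apply, map_smul, smul_eq_mul, smul_eq_mul,
        hself v hv u hu] at h
      have h5 : 2 * ε * SympModel.formB d F v (g u) = 0 := by linear_combination h
      rw [hself v hv u hu]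
      exact (mul_eq_zero.1 h5).resolve_left (mul_ne_zero h2 fun h0 => by rw [h0, mul_zero] at hε1; exact zero_ne_one hε1)
    have := hg2 v hv
    rw [hgv, map_zero, eq_comm, smul_eq_zero] at this
    exact hv0 (this.resolve_left hδ0)

end CfsgLib.C3Derange
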